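import Cfsg.Agent.Lib.H22.TorUniv

/-!
# Self-centralising cyclic tori of the groups of types E₆ and E₇
-/

set_option autoImplicit false
set_option linter.style.haveILetI false
set_option linter.unusedSectionVars false
set_option linter.unusedSimpArgs false
set_option linter.unusedVariables false

namespace H22.TorAd

open H22.RGD H22.Coord H22.RCCheck H22.RCComb H22.ChevTri H22.ChevRel H22.ChevSys H22.ChevMain
open H22.ChevStd H22.ChevUni H22.ChevTorus H22.Lang H22.LangChev H22.TorusLat H22.TorusCore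
open H22.TorusFix H22.TorTw H22.TorSub H22.St H22.TorUniv
open Cfsg.Lie (ChevalleyDatum)
open scoped MatrixGroups Matrix

variable {D : ChevalleyDatum}

section univ

variable {K : Type*} [Field K] (hD : D ∈ [Cfsg.Lie.chevG2, Cfsg.Lie.chevB2, Cfsg.Lie.chevD4,
      Cfsg.Lie.chevF4, Cfsg.Lie.chevE6, Cfsg.Lie.chevE7, Cfsg.Lie.chevE8]) (X : RCX D)

/-- the Steinberg group -/
noncomputable def SS (R : Rel D K) : StG R (D.SteinbergGroup K) :=
  stGof R (θ₀ R X.rc (hmul_all D hD)) (θ₀_gen R X.rc (hmul_all D hD))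

/-- field endomorphisms of the Steinberg group -/
theorem exists_Fb (R : Rel D K) (φ : K →+* K) : ∃ Fb, UF (SS hD X R) Fb φ := by
  have hneg := H23.Cv.neg_lt hD
  have R' := H23.ChevExc.stR (K := K) (D := D) hneg
  have hfield : H23.ChevExc.StR D (fun r t => D.stGen K r (φ t)) := by
    refine ⟨?_, ?_, ?_⟩
    · intro r hr t u; rw [R'.add r hr, map_add]
    · intro r hr s hs h1 h2 t u
      rw [R'.comm r hr s hs h1 h2]
      congr 1
      unfold H23.ChevExc.wp ChevalleyDatum.commWord
      rw [List.map_map, List.map_map]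
      congr 1
      apply List.map_congr_left
      intro d _
      simp only [Function.comp, map_mul, map_pow, map_neg, map_intCast]
    · intro r hr t u ht hu
      have := R'.mul r hr (φ t) (φ u) (by simpa using ht) (by simpa using hu)
      unfold H23.ChevExc.hh H23.ChevExc.nn at this ⊢
      simp only [map_neg, map_one, map_mul, map_inv₀] at this ⊢
      exact this
  obtain ⟨B, hB⟩ := H23.ChevExc.exists_lift hfield hneg (H23.Cv.ct_lt hD)
  exact ⟨B, ⟨hB⟩⟩

end univ

theorem finite_ker (X : RCX D) (K : Type*) [Field K] : Finite (chi D K).ker := by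
  set A : Matrix (Fin D.rank) (Fin D.rank) ℤ := Matrix.of fun i j => (coord X).A i j with hA
  have hd : A.det ≠ 0 := H47.TorAll.det_ne_zero (coord X)
  have hm : 0 < A.det.natAbs := Int.natAbs_pos.2 hd
  haveI : NeZero A.det.natAbs := ⟨hm.ne'⟩
  have key : ∀ c ∈ (chi D K).ker, ∀ k, c k ∈ rootsOfUnity A.det.natAbs K := by
    intro c hc k
    rw [mem_ker_chi X.rc] at hc
    have h1 : ∀ j : Fin D.rank, ∏ i : Fin D.rank, c i ^ A i j = 1 := by
      intro j
      rw [← hc j]
      refine Finset.prod_congr rfl fun i _ => ?_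
      congr 1
      exact (cartan_simple X.rc i.2 j.2).symm
    have h2 : ∏ j, (∏ i, c i ^ A i j) ^ (A.adjugate j k) = c k ^ A.det := by
      have h3 : ∀ j, (∏ i, c i ^ A i j) ^ (A.adjugate j k) = ∏ i, c i ^ (A i j * A.adjugate j k) := by
        intro j
        rw [← Finset.prod_zpow]
        exact Finset.prod_congr rfl fun i _ => (zpow_mul _ _ _).symm
      rw [Finset.prod_congr rfl fun j _ => h3 j, Finset.prod_comm]
      have h4 : ∀ i, ∏ j, c i ^ (A i j * A.adjugate j k) = c i ^ (if i = k then A.det else 0) := by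
        intro i
        rw [← zpow_finset_sum]
        congr 1
        have h5 := congrFun (congrFun (Matrix.mul_adjugate A) i) k
        rw [Matrix.mul_apply] at h5
        rw [h5, Matrix.smul_apply, Matrix.one_apply]
        split_ifs <;> simp
      rw [Finset.prod_congr rfl fun i _ => h4 i, Finset.prod_eq_single k]
      · simp
      · intro i _ hi; simp [hi]
      · simp
    rw [Finset.prod_congr rfl fun j _ => by rw [h1 j, one_zpow], Finset.prod_const_one] at h2
    rw [mem_rootsOfUnity]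
    rcases Int.natAbs_eq A.det with h | h
    · rw [h, zpow_natCast] at h2; exact h2.symm
    · rw [h, zpow_neg, zpow_natCast, eq_comm, inv_eq_one] at h2; exact h2
  have hf : Finite (Fin D.rank → rootsOfUnity A.det.natAbs K) := inferInstance
  let g : (chi D K).ker → (Fin D.rank → rootsOfUnity A.det.natAbs K) := fun c k =>
    ⟨c.1 k, key c.1 c.2 k⟩
  refine Finite.of_injective g ?_
  intro a b h
  apply Subtype.ext
  funext k
  exact congrArg Subtype.val (congrFun h k)

section count

variable {F : Type*} [Field F] [Fintype F]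

/-- the Frobenius fixed points of the centre -/
theorem card_center_fix (hD : D ∈ [Cfsg.Lie.chevG2, Cfsg.Lie.chevB2, Cfsg.Lie.chevD4,
      Cfsg.Lie.chevF4, Cfsg.Lie.chevE6, Cfsg.Lie.chevE7, Cfsg.Lie.chevE8]) {X : RCX D}
    (Z : Lex X.rc) (W : StCert D X.rc.half)
    {R : Rel D (AlgebraicClosure F)} {Gb : Type*} [Group Gb] {S : StG R Gb} {Fb : Gb →* Gb}
    {φ : AlgebraicClosure F →+* AlgebraicClosure F} (U : UF S Fb φ)
    (hφ : ∀ x, φ x = x ^ Fintype.card F) (hψ : Function.Injective (S.psi X Z W)) :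
    Nat.card ((Subgroup.center Gb) ⊓ Fb.eqLocus (MonoidHom.id Gb) : Subgroup Gb) =
      Nat.card (chi D F).ker := by
  let ex : (Fin D.rank → Fˣ) → (Fin D.rank → (AlgebraicClosure F)ˣ) := fun c i =>
    Units.map (algebraMap F (AlgebraicClosure F) : F →* AlgebraicClosure F) (c i)
  have hexinj : Function.Injective ex := by
    intro a b h
    funext i
    have h1 := congrArg Units.val (congrFun h i)
    exact Units.ext ((algebraMap F (AlgebraicClosure F)).injective h1)
  have hex : ∀ c, ex c ∈ (chi D (AlgebraicClosure F)).ker ↔ c ∈ (chi D F).ker := by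
    intro c
    rw [mem_ker_chi X.rc, mem_ker_chi X.rc]
    have h1 : ∀ j : Fin D.rank, ∏ i, ex c i ^ (D.cartan i (D.simple j)) =
        Units.map (algebraMap F (AlgebraicClosure F) : F →* AlgebraicClosure F)
          (∏ i, c i ^ (D.cartan i (D.simple j))) := by
      intro j
      rw [map_prod]
      exact Finset.prod_congr rfl fun i _ => (map_zpow _ _ _).symm
    refine forall_congr' fun j => ?_
    rw [h1]
    constructor
    · intro h
      have h2 := congrArg Units.val h
      exact Units.ext ((algebraMap F (AlgebraicClosure F)).injective (by simpa using h2))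
    · intro h; rw [h, map_one]
  refine (Nat.card_congr (Equiv.ofBijective (fun c : (chi D F).ker =>
    (⟨S.psi X Z W (ex c.1), ?_, ?_⟩ : ((Subgroup.center Gb) ⊓ Fb.eqLocus (MonoidHom.id Gb) :
      Subgroup Gb))) ⟨?_, ?_⟩)).symm
  · rw [SetLike.mem_coe, S.center_eq X Z W]
    exact ⟨ex c.1, (hex _).2 c.2, rfl⟩
  · change Fb _ = _
    rw [U.psi Z W hφ]
    change _ = S.psi X Z W (ex c.1)
    congr 1
    funext i
    apply Units.ext
    change (algebraMap F (AlgebraicClosure F) (c.1 i)) ^ Fintype.card F =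
      algebraMap F (AlgebraicClosure F) (c.1 i)
    rw [← map_pow, FiniteField.pow_card]
  · intro a b h
    have h1 := congrArg Subtype.val h
    exact Subtype.ext (hexinj (hψ h1))
  · rintro ⟨g, hg1, hg2⟩
    rw [SetLike.mem_coe, S.center_eq X Z W] at hg1
    obtain ⟨c, hc, rfl⟩ := hg1
    have hg2' : Fb (S.psi X Z W c) = S.psi X Z W c := hg2
    rw [U.psi Z W hφ] at hg2'
    have h1 : c ^ Fintype.card F = c := hψ hg2'
    have h2 : ∀ i, ∃ y : Fˣ, Units.map (algebraMap F (AlgebraicClosure F) : F →* AlgebraicClosure F) y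
        = c i := by
      intro i
      obtain ⟨y, hy⟩ := exists_of_pow_card (F := F) (x := (c i : AlgebraicClosure F)) (by
        rw [← Units.val_pow_eq_pow_val]
        exact congrArg Units.val (congrFun h1 i))
      have hy0 : y ≠ 0 := by
        rintro rfl
        rw [map_zero] at hy
        exact (c i).ne_zero hy.symm
      exact ⟨Units.mk0 y hy0, Units.ext hy⟩
    choose y hy using h2
    have h3 : ex y = c := funext hy
    refine ⟨⟨y, (hex y).1 (by rw [h3]; exact hc)⟩, Subtype.ext ?_⟩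
    change S.psi X Z W (ex y) = S.psi X Z W c
    rw [h3]

/-- Cyclic self-centralising tori in the groups of adjoint type. -/
theorem main_ad (q : ℕ) (hq : Fintype.card F = q)
    (hD : D ∈ [Cfsg.Lie.chevG2, Cfsg.Lie.chevB2, Cfsg.Lie.chevD4,
      Cfsg.Lie.chevF4, Cfsg.Lie.chevE6, Cfsg.Lie.chevE7, Cfsg.Lie.chevE8]) {X : RCX D}
    (Z : Lex X.rc) (W : StCert D X.rc.half)
    (hψ : ∀ R : Rel D (AlgebraicClosure F), Function.Injective ((SS hD X R).psi X Z W))
    {L : List (Fin D.rank)} {P : Fin D.rank → Fin D.rank → ℤ} {c : Fin D.rank → ℤ}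
    {b : Fin D.nroots} (C : Cyc (wM (coord X).A L) (v X b) P c)
    (hc : c ⟨0, C.pos⟩ = 1 ∨ c ⟨0, C.pos⟩ = -1) (f f' d : ℕ) (hf : fv c q = f)
    (hd : Nat.card (chi D F).ker = d) (hff : f' * d = f)
    (hdiv : DivM X (wM (coord X).A L) P b f' q) :
    ∃ H : Subgroup (D.group F), IsCyclic H ∧ Nat.card H = f' ∧
      Subgroup.centralizer (H : Set (D.group F)) = H := by
  subst hq
  have RF := H22.ChevAll.rel D hD F
  have RK := H22.ChevAll.rel D hD (AlgebraicClosure F)
  let σ : AlgebraicClosure F →+* AlgebraicClosure F :=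
    (FiniteField.frobeniusAlgHom F (AlgebraicClosure F)).toRingHom
  have hσ : ∀ x, σ x = x ^ Fintype.card F := fun x => rfl
  have hq0 : ((Fintype.card F : ℕ) : AlgebraicClosure F) = 0 := by
    have h := congrArg (algebraMap F (AlgebraicClosure F)) (FiniteField.cast_card_eq_zero F)
    rwa [map_natCast, map_zero] at h
  have hfK : (f : AlgebraicClosure F) ≠ 0 := by
    have h := fv_cast C.pos c hc hq0
    rw [hf] at h
    simpa using h
  have hq2 : 2 ≤ Fintype.card F := Fintype.one_lt_card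
  have ST := stein_frob RK Z σ (Fintype.card F) Fintype.one_lt_card hσ
  have hT := H22.TorD4.Tz_all RK X
  obtain ⟨Fb, U⟩ := exists_Fb hD X RK σ
  set S := SS hD X RK with hS
  have hψ' := hψ RK
  rw [← hS] at hψ'
  set n := (S.stSys X Z W).nw L with hndef
  have hn := (S.stSys X Z W).rep_nw L
  have hFn : Fb n = n := U.nw Z W L
  obtain ⟨x, hx⟩ := lang_univ Z W U hσ hq2 hn hFn
  have hxn : (S.θ x)⁻¹ * Matrix.GeneralLinearGroup.map σ (S.θ x) = S.θ n := by
    rw [← U.θ, ← map_inv, ← map_mul, hx]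
  have hFx : Fb x = x * n := by rw [hndef, ← hx]; group
  let B : Subgroup (D.SteinbergGroup (AlgebraicClosure F)) :=
    S.Hb ⊓ MonoidHom.eqLocus ((MulAut.conj n).toMonoidHom.comp Fb) (MonoidHom.id _)
  let A' : Subgroup (Fin D.rank → (AlgebraicClosure F)ˣ) := (B.map S.θ).comap (Tz X)
  have hA' : ∀ z, z ∈ A' ↔ ∃ h ∈ S.Hb, n * Fb h * n⁻¹ = h ∧ S.θ h = Tz X z := by
    intro z
    constructor
    · rintro ⟨h, ⟨h1, h2⟩, h3⟩
      exact ⟨h, h1, h2, h3⟩
    · rintro ⟨h, h1, h2, h3⟩
      exact ⟨h, ⟨h1, h2⟩, h3⟩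
  have hM : ∀ r, v X ((comb X).w L r) = wM (coord X).A L (v X r) := v_word L
  obtain ⟨hle, hcard⟩ := card_tw Z W U hσ hq2 hn hFn hT hM (finite_ker X _) A' hA'
  rw [card_center_fix hD Z W U hσ hψ', hd] at hcard
  haveI hne : NeZero (f : AlgebraicClosure F) := ⟨hfK⟩
  haveI hne' : NeZero f := ⟨fun h => hfK (by rw [h]; simp)⟩
  haveI : HasEnoughRootsOfUnity (AlgebraicClosure F) f := inferInstance
  have hcardA : Nat.card (tw (AlgebraicClosure F)ˣ (wM (coord X).A L) (Fintype.card F)) = f := by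
    have hker : (zpowGroupHom (α := (AlgebraicClosure F)ˣ) (fv c (Fintype.card F : ℕ))).ker =
        rootsOfUnity f (AlgebraicClosure F) := by
      ext ζ
      rw [MonoidHom.mem_ker, mem_rootsOfUnity, hf]
      simp
    rw [Nat.card_congr ((C.equiv (T := (AlgebraicClosure F)ˣ) (Fintype.card F)).trans
      (MulEquiv.subgroupCongr hker)).toEquiv, HasEnoughRootsOfUnity.natCard_rootsOfUnity]
  have hd0 : d ≠ 0 := by
    rintro rfl
    apply NeZero.ne f
    rw [← hff, mul_zero]
  have hcard' : Nat.card A' = f' := by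
    rw [hcardA, ← hff] at hcard
    exact Nat.eq_of_mul_eq_mul_right (Nat.pos_of_ne_zero hd0) hcard
  have hemb : ∀ g : D.SteinbergGroup (AlgebraicClosure F), Fb g = g →
      ∃ y, emb D F (AlgebraicClosure F) y = S.θ g := by
    intro g hg
    have h1 := fixed_univ Z W U hσ hψ' hg
    induction h1 using Subgroup.closure_induction with
    | mem x hx =>
      obtain ⟨r, t, hr, ht, rfl⟩ := hx
      rw [hσ] at ht
      obtain ⟨t, rfl⟩ := exists_of_pow_card ht
      refine ⟨⟨xg RF r t, xg_mem_group' RF r t⟩, ?_⟩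
      rw [S.θ_x r hr]
      exact Units.ext (H22.ChevField.x_map (algebraMap F _) r t)
    | one => exact ⟨1, by rw [map_one, map_one]⟩
    | mul a b ha hb h1 h2 =>
      have hfix : ∀ a ∈ Subgroup.closure {g | ∃ (r : ℕ) (t : AlgebraicClosure F),
          r < D.nroots ∧ σ t = t ∧ g = S.xb r t}, Fb a = a := by
        intro a ha
        have : Subgroup.closure {g | ∃ (r : ℕ) (t : AlgebraicClosure F),
          r < D.nroots ∧ σ t = t ∧ g = S.xb r t} ≤ MonoidHom.eqLocus Fb (MonoidHom.id _) := by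
          rw [Subgroup.closure_le]
          rintro _ ⟨r, t, hr, ht, rfl⟩
          change Fb _ = _
          rw [U.x r hr, ht]; rfl
        exact this ha
      obtain ⟨y, hy⟩ := h1 (hfix a ha)
      obtain ⟨y', hy'⟩ := h2 (hfix b hb)
      exact ⟨y * y', by rw [map_mul, map_mul, hy, hy']⟩
    | inv a ha h1 =>
      obtain ⟨y, hy⟩ := h1 (by
        have := congrArg (fun z => z⁻¹) hg
        simpa using this)
      exact ⟨y⁻¹, by rw [map_inv, map_inv, hy]⟩
  have hemb' : ∀ y, ∃ g, Fb g = g ∧ S.θ g = emb D F (AlgebraicClosure F) y := by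
    rintro ⟨y, hy⟩
    refine H22.TwStein.group_ind (p := fun y => ∃ g, Fb g = g ∧ S.θ g =
      Matrix.GeneralLinearGroup.map (algebraMap F (AlgebraicClosure F)) y) RF ?_ ?_ ?_ ?_ hy
    · intro r t
      refine ⟨S.xb r (algebraMap F _ t), ?_, ?_⟩
      · rw [U.x r r.2, hσ, ← map_pow, FiniteField.pow_card]
      · rw [S.θ_x r r.2]
        exact (Units.ext (H22.ChevField.x_map (algebraMap F _) r t)).symm
    · exact ⟨1, map_one _, by rw [map_one, map_one]⟩
    · rintro a b ⟨g, h1, h2⟩ ⟨g', h3, h4⟩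
      exact ⟨g * g', by rw [map_mul, h1, h3], by rw [map_mul, map_mul, h2, h4]⟩
    · rintro a ⟨g, h1, h2⟩
      exact ⟨g⁻¹, by rw [map_inv, h1], by rw [map_inv, map_inv, h2]⟩
  refine cyclic_torus_sub Z ST hT (S.rep_map X Z W hn) (θ_group (S := S) x) hxn
    (M := wM (coord X).A L) (by simpa using hM) C hf hfK ⟨d, hff.symm⟩ A' hle hcard'
    (emb D F (AlgebraicClosure F)) emb_injective (emb_fix σ hσ) ?_ ?_ hdiv
  · intro z hz
    obtain ⟨h, hh, h1, h2⟩ := (hA' z).1 hz
    obtain ⟨y, hy⟩ := hemb (x * h * x⁻¹) (by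
      rw [map_mul, map_mul, map_inv, hFx]
      calc x * n * Fb h * (x * n)⁻¹ = x * (n * Fb h * n⁻¹) * x⁻¹ := by group
        _ = _ := by rw [h1])
    exact ⟨y, by rw [hy, map_mul, map_mul, map_inv, h2]⟩
  · intro y z hz hyz
    obtain ⟨g, hg1, hg2⟩ := hemb' y
    have h1 : S.θ (x⁻¹ * g * x) = Tz X z := by
      rw [map_mul, map_mul, map_inv, hg2, hyz]; group
    refine (hA' z).2 ⟨x⁻¹ * g * x, mem_Hb_of_θ Z W (by rw [h1]; exact hT z), ?_, h1⟩
    rw [map_mul, map_mul, map_inv, hg1, hFx]
    group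

end count

end H22.TorAd
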