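import Cfsg.Agent.Lib.H22.TorTw
import Cfsg.Agent.Lib.H22.PoinE6

/-!
Certificate for a self-centralising cyclic torus, type E6.
-/

set_option autoImplicit false

namespace H22.TorE6

open H22.TorusLat H22.TorusCore H22.TorusFix H22.RCComb H22.TorTw

/-- the word -/
def L : List (Fin Cfsg.Lie.chevE6.rank) := ([0, 1, 2, 3, 4, 5] : List (Fin 6))

/-- intermediate vectors -/
def bt (s : ℕ) (j : Fin Cfsg.Lie.chevE6.rank) : ℤ :=
  (((([8947847, 8947847, 8947847, 8947847, 8947591, 8947591, 8947592, 8947592, 8947592, 8943496, 8943752, 8943736, 8943736, 8943736, 8878200, 8878200, 8877944, 8877960, 8877959, 7829383, 7829383, 7829383, 7829383, 7829367, 7829368, 8877944, 8943480, 8943480, 8943736, 8943752, 8943752, 8943752, 8878216, 8882312, 8882312, 8882312, 8882312] : List ℕ).getD s 0) >>> (4 * (j : ℕ)) % 16 : ℕ) : ℤ) - 8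

/-- inverse base change -/
def P (i j : Fin Cfsg.Lie.chevE6.rank) : ℤ := (([[-1, 0, 0, 0, 1, -1], [0, 0, -1, 0, 1, 0], [0, -1, 0, 0, 0, 1], [0, 0, 0, 0, -1, 1], [0, 0, 0, 0, 0, -1], [0, 1, 0, -1, 1, -1]] : List (List ℤ)).getD i []).getD j 0

/-- characteristic polynomial -/
def c (i : Fin Cfsg.Lie.chevE6.rank) : ℤ := (([1, 1, 0, -1, 0, 1] : List ℤ)).getD i 0

/-- the cyclic vector -/
def b : Fin Cfsg.Lie.chevE6.nroots := (15 : Fin 72)

theorem v_b : v H22.PoinE6.rcxE6 b = bt 0 := by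
  funext j
  revert j
  decide +kernel

theorem cyc : Cyc (wM (coord H22.PoinE6.rcxE6).A L) (v H22.PoinE6.rcxE6 b) P c := by
  rw [v_b]
  exact cyc_of _ L bt P c (by decide) (by decide +kernel) (by decide +kernel) (by decide +kernel)

theorem bound : ∀ (r : Fin Cfsg.Lie.chevE6.nroots) (i : Fin Cfsg.Lie.chevE6.rank), |ac P (v H22.PoinE6.rcxE6 r) i| ≤ 1 := by
  decide +kernel

theorem div2 : DivM H22.PoinE6.rcxE6 (wM (coord H22.PoinE6.rcxE6).A L) P b (((91 : ℕ) : ℤ)) ((2 : ℕ) : ℤ) := by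
  refine ⟨by decide +kernel, fun r hr h => absurd h ?_⟩
  revert r
  decide +kernel

theorem div3 : DivM H22.PoinE6.rcxE6 (wM (coord H22.PoinE6.rcxE6).A L) P b (((949 : ℕ) : ℤ)) ((3 : ℕ) : ℤ) := by
  refine ⟨by decide +kernel, fun r hr h => absurd h ?_⟩
  revert r
  decide +kernel

theorem div4 : DivM H22.PoinE6.rcxE6 (wM (coord H22.PoinE6.rcxE6).A L) P b (((1687 : ℕ) : ℤ)) ((4 : ℕ) : ℤ) := by
  refine ⟨by decide +kernel, fun r hr h => absurd h ?_⟩
  revert r
  decide +kernel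

theorem div5 : DivM H22.PoinE6.rcxE6 (wM (coord H22.PoinE6.rcxE6).A L) P b (((18631 : ℕ) : ℤ)) ((5 : ℕ) : ℤ) := by
  refine ⟨by decide +kernel, fun r hr h => absurd h ?_⟩
  revert r
  decide +kernel

end H22.TorE6
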