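import Cfsg.Agent.Lib.H22.TorAd
import Cfsg.Agent.Lib.H22.TorE6
import Cfsg.Agent.Lib.H22.TorE7

/-!
# Self-centralising cyclic tori of E₆(q) and E₇(q)
-/

set_option autoImplicit false
set_option linter.unusedVariables false

namespace H22.TorAdE

open H22.RGD H22.Coord H22.RCCheck H22.RCComb H22.ChevTri H22.ChevRel H22.ChevSys H22.ChevMain
open H22.ChevStd H22.ChevUni H22.ChevTorus H22.TorusLat H22.TorusCore
open H22.TorusFix H22.TorTw H22.TorSub H22.St H22.TorUniv H22.TorAd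
open Cfsg.Lie (ChevalleyDatum)
open scoped MatrixGroups Matrix

variable {D : ChevalleyDatum}

theorem psi_inj {K : Type*} [Field K] (hD : D ∈ [Cfsg.Lie.chevG2, Cfsg.Lie.chevB2, Cfsg.Lie.chevD4,
      Cfsg.Lie.chevF4, Cfsg.Lie.chevE6, Cfsg.Lie.chevE7, Cfsg.Lie.chevE8]) {X : RCX D}
    (Z : Lex X.rc) (W : StCert D X.rc.half) {C : H23.ChevSLTheory.SLData D}
    {em : ℕ → ℕ} (H : H23.SubE8.Emb C (H23.ChevSLCheck.Code.toSLData H23.ChevCertE8.easy_E8
      H23.ChevCertE8.pack_E8 H23.ChevCertE8.rows_E8) em)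
    (hsim : ∀ i < D.rank, em (D.simple i) = Cfsg.Lie.chevE8.simple i) (R : Rel D K) :
    Function.Injective ((SS hD X R).psi X Z W) := by
  have hD' : Cfsg.Lie.chevE8 ∈ H23.Cv.L7 := by simp
  obtain ⟨X', ⟨Z'⟩, W'⟩ := H22.StTab.exists_all hD'
  have R' := H22.ChevAll.rel Cfsg.Lie.chevE8 hD' K
  let S' := stGof R' (θ₀ R' X'.rc (hmul_all _ hD')) (θ₀_gen R' X'.rc (hmul_all _ hD'))
  have R8 := H23.ChevExc.stR (D := Cfsg.Lie.chevE8) (K := K) (H23.Cv.neg_lt hD')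
  have hSt : H23.ChevExc.StR D (fun r t => Cfsg.Lie.chevE8.stGen K (em r) t) := by
    refine ⟨(H.ab R8.ab).add, (H.ab R8.ab).comm, fun r hr t u ht hu => ?_⟩
    have h1 := R8.mul (em r) (H.lt r hr) t u ht hu
    have e : ∀ t, H23.ChevExc.hh D (fun r t => Cfsg.Lie.chevE8.stGen K (em r) t) r t =
        H23.ChevExc.hh Cfsg.Lie.chevE8 (fun r t => Cfsg.Lie.chevE8.stGen K r t) (em r) t := by
      intro t
      unfold H23.ChevExc.hh H23.ChevExc.nn
      beta_reduce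
      rw [H.neg hr]
    rw [e, e, e]
    exact h1
  obtain ⟨ρ, hρ⟩ := H23.ChevExc.exists_lift hSt (H23.Cv.neg_lt hD) (H23.Cv.ct_lt hD)
  exact H23.CenterE.psi_inj hD H hsim (SS hD X R) (fun _ _ => rfl) S' (fun _ _ => rfl) X Z W
    X' Z' W' ρ hρ ker_chi_E8

/-! ### size estimates -/

theorem abs_sum_le (q M : ℤ) (hM : 0 ≤ M) (hq : 1 ≤ q) : ∀ (l : ℕ) (a : Fin l → ℤ),
    (∀ i, |a i| ≤ M) → (q - 1) * |∑ i, a i * q ^ (i : ℕ)| ≤ M * (q ^ l - 1) := by
  intro l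
  induction l with
  | zero => intro a _; simp
  | succ l ih =>
    intro a ha
    rw [Fin.sum_univ_castSucc]
    have h1 := ih (fun i => a i.castSucc) (fun i => ha _)
    have hql : (0 : ℤ) ≤ q ^ l := by positivity
    have h2 : |a (Fin.last l) * q ^ ((Fin.last l : Fin (l + 1)) : ℕ)| ≤ M * q ^ l := by
      rw [abs_mul, Fin.val_last, abs_of_nonneg hql]
      exact mul_le_mul_of_nonneg_right (ha _) hql
    have h3 := abs_add_le (∑ i : Fin l, a i.castSucc * q ^ ((i.castSucc : Fin (l + 1)) : ℕ))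
      (a (Fin.last l) * q ^ ((Fin.last l : Fin (l + 1)) : ℕ))
    simp only [Fin.val_castSucc] at *
    have h4 : (q - 1) * |∑ i : Fin l, a i.castSucc * q ^ (i : ℕ) +
        a (Fin.last l) * q ^ ((Fin.last l : Fin (l + 1)) : ℕ)| ≤
        (q - 1) * |∑ i : Fin l, a i.castSucc * q ^ (i : ℕ)| + (q - 1) * (M * q ^ l) := by
      rw [← mul_add]
      exact mul_le_mul_of_nonneg_left (h3.trans (by linarith)) (by linarith)
    have h5 : M * (q ^ (l + 1) - 1) = M * (q ^ l - 1) + (q - 1) * (M * q ^ l) := by ring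
    rw [h5]
    linarith

theorem not_dvd_of_large' {f q M : ℤ} (hM : 0 ≤ M) (hq : M + 1 ≤ q) (hq2 : 2 ≤ q) {l : ℕ}
    {a : Fin l → ℤ} (ha : ∀ i, |a i| ≤ M) (hne : a ≠ 0)
    (hf : M * (q ^ l - 1) < (q - 1) * f) : ¬ f ∣ ∑ i, a i * q ^ (i : ℕ) := by
  intro h
  have h1 := abs_sum_le q M hM (by omega) l a ha
  have h3 : |∑ i, a i * q ^ (i : ℕ)| < f := by
    have : (q - 1) * |∑ i, a i * q ^ (i : ℕ)| < (q - 1) * f := lt_of_le_of_lt h1 hf
    exact lt_of_mul_lt_mul_left this (by linarith)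
  have h2 := Int.eq_zero_of_abs_lt_dvd h h3
  exact hne (sum_ne_zero q M hM hq l a ha h2)

theorem divM_large {X : RCX D} {M' : (Fin D.rank → ℤ) →+ (Fin D.rank → ℤ)}
    {P : Fin D.rank → Fin D.rank → ℤ}
    {c : Fin D.rank → ℤ} {b : Fin D.nroots} (C : Cyc M' (v X b) P c)
    {M q f : ℤ} (hM : 0 ≤ M) (ha : ∀ r i, |ac P (v X r) i| ≤ M) (hq : M + 2 ≤ q)
    (hf : (M + 1) * (q ^ D.rank - 1) < (q - 1) * f) : DivM X M' P b f q := by
  have hq1 : (0 : ℤ) ≤ q ^ D.rank - 1 := by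
    have : (1 : ℤ) ≤ q ^ D.rank := one_le_pow₀ (by linarith)
    linarith
  constructor
  · intro r
    refine not_dvd_of_large' hM (by omega) (by omega) (ha r) ?_ (by nlinarith)
    intro h0
    obtain ⟨j, hj⟩ := (coord X).ne_zero r
    apply hj
    have h1 := congrFun (C.decomp (v X r)) j
    rw [Finset.sum_apply] at h1
    change (coord X).co r j = _ at h1
    rw [h1]
    refine Finset.sum_eq_zero fun i _ => ?_
    have h2 : ac P (v X r) i = 0 := congrFun h0 i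
    rw [h2]; simp
  · intro r hr h
    exfalso
    have h1 : gv P q (v X r) - 1 = ∑ i, (ac P (v X r) i - ac P (v X b) i) * q ^ (i : ℕ) := by
      rw [← C.gv_b q]
      unfold gv
      rw [← Finset.sum_sub_distrib]
      exact Finset.sum_congr rfl fun i _ => by ring
    rw [h1] at h
    refine not_dvd_of_large' (M := M + 1) (by omega) (by omega) (by omega) ?_ ?_ hf h
    · intro i
      have h2 : ac P (v X b) i = if (⟨0, C.pos⟩ : Fin D.rank) = i then 1 else 0 :=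
        C.ac_iterate ⟨0, C.pos⟩ i
      have h3 := ha r i
      rw [abs_le] at h3 ⊢
      rw [h2]
      split_ifs <;> omega
    · intro h0
      apply hr
      apply (coord X).co_inj
      have h4 : ∀ i, ac P (v X r) i = ac P (v X b) i := fun i => by
        have := congrFun h0 i
        simp only [Pi.zero_apply] at this
        omega
      change v X r = v X b
      exact (C.decomp (v X r)).trans ((Finset.sum_congr rfl fun i _ => by rw [h4]).trans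
        (C.decomp (v X b)).symm)

theorem memE6 : Cfsg.Lie.chevE6 ∈ [Cfsg.Lie.chevG2, Cfsg.Lie.chevB2, Cfsg.Lie.chevD4,
      Cfsg.Lie.chevF4, Cfsg.Lie.chevE6, Cfsg.Lie.chevE7, Cfsg.Lie.chevE8] := by simp
theorem memE7 : Cfsg.Lie.chevE7 ∈ [Cfsg.Lie.chevG2, Cfsg.Lie.chevB2, Cfsg.Lie.chevD4,
      Cfsg.Lie.chevF4, Cfsg.Lie.chevE6, Cfsg.Lie.chevE7, Cfsg.Lie.chevE8] := by simp

theorem s2373 {F : Type*} [Field F] [Fintype F] (q : ℕ) (hF : Fintype.card F = q) :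
    ∃ H : Subgroup ↥(Cfsg.Lie.chevE6.group F), IsCyclic ↥H ∧ Nat.card ↥H =
      (q ^ 4 - q ^ 2 + 1) * (q ^ 2 + q + 1) / Nat.gcd 3 (q - 1) ∧
      Subgroup.centralizer (H : Set ↥(Cfsg.Lie.chevE6.group F)) = H := by
  have hq2 : 2 ≤ q := by rw [← hF]; exact Fintype.one_lt_card
  have hle : q ^ 2 ≤ q ^ 4 := Nat.pow_le_pow_right (by omega) (by norm_num)
  set f := (q ^ 4 - q ^ 2 + 1) * (q ^ 2 + q + 1) with hfdef
  have hfv : fv H22.TorE6.c (q : ℤ) = (f : ℤ) := by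
    have h : fv H22.TorE6.c (q : ℤ) = (q : ℤ) ^ 6 + ∑ i : Fin 6, H22.TorE6.c i * (q : ℤ) ^ (i : ℕ) := rfl
    rw [h, Fin.sum_univ_six]
    have h0 : H22.TorE6.c (0 : Fin 6) = 1 := rfl
    have h1 : H22.TorE6.c (1 : Fin 6) = 1 := rfl
    have h2 : H22.TorE6.c (2 : Fin 6) = 0 := rfl
    have h3 : H22.TorE6.c (3 : Fin 6) = -1 := rfl
    have h4 : H22.TorE6.c (4 : Fin 6) = 0 := rfl
    have h5 : H22.TorE6.c (5 : Fin 6) = 1 := rfl
    rw [h0, h1, h2, h3, h4, h5, hfdef]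
    push_cast [hle]
    simp
    ring
  have hd := H22.ChevTorusCard.kerE6 (F := F) hF
  have hg0 : 0 < Nat.gcd 3 (q - 1) := Nat.gcd_pos_of_pos_left _ (by norm_num)
  have hdvd : Nat.gcd 3 (q - 1) ∣ f := by
    rw [hfdef]
    apply Dvd.dvd.mul_left
    rcases (Nat.dvd_prime Nat.prime_three).1 (Nat.gcd_dvd_left 3 (q - 1)) with h | h
    · rw [h]; exact one_dvd _
    · rw [h]
      obtain ⟨k, hk⟩ : 3 ∣ q - 1 := by rw [← h]; exact Nat.gcd_dvd_right _ _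
      have hq : q = 3 * k + 1 := by omega
      rw [hq]
      exact ⟨3 * k ^ 2 + 3 * k + 1, by ring⟩
  have hff : f / Nat.gcd 3 (q - 1) * Nat.gcd 3 (q - 1) = f := Nat.div_mul_cancel hdvd
  refine main_ad (X := H22.PoinE6.rcxE6) q hF memE6 H22.ChevLex.lexE6 H22.StTab.certE6
    (fun R => psi_inj memE6 _ _ H23.SubE8.embE6 H23.SubE8.simpE6 R)
    H22.TorE6.cyc (Or.inl rfl) f (f / Nat.gcd 3 (q - 1)) (Nat.gcd 3 (q - 1)) hfv hd hff ?_
  by_cases h2 : q = 2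
  · subst h2
    have e : f / Nat.gcd 3 (2 - 1) = 91 := by norm_num [hfdef]
    rw [e]; exact H22.TorE6.div2
  by_cases h3 : q = 3
  · subst h3
    have e : f / Nat.gcd 3 (3 - 1) = 949 := by norm_num [hfdef]
    rw [e]; exact H22.TorE6.div3
  by_cases h4 : q = 4
  · subst h4
    have e : f / Nat.gcd 3 (4 - 1) = 1687 := by norm_num [hfdef]
    rw [e]; exact H22.TorE6.div4
  by_cases h5 : q = 5
  · subst h5
    have e : f / Nat.gcd 3 (5 - 1) = 18631 := by norm_num [hfdef]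
    rw [e]; exact H22.TorE6.div5
  have h6 : q ≠ 6 := by
    rintro rfl
    have := FiniteField.isPrimePow_card F
    rw [hF] at this
    revert this
    rw [isPrimePow_nat_iff_bounded]
    decide
  refine divM_large H22.TorE6.cyc (M := 1) (by norm_num) H22.TorE6.bound (by omega) ?_
  have hdle : (Nat.gcd 3 (q - 1) : ℤ) ≤ 3 := by
    exact_mod_cast Nat.gcd_le_left _ (by norm_num)
  have hffZ : ((f / Nat.gcd 3 (q - 1) : ℕ) : ℤ) * (Nat.gcd 3 (q - 1) : ℤ) = f := by exact_mod_cast hff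
  have hf'0 : (0 : ℤ) ≤ ((f / Nat.gcd 3 (q - 1) : ℕ) : ℤ) := by positivity
  have hfZ : (f : ℤ) = (q : ℤ) ^ 6 + q ^ 5 - q ^ 3 + q + 1 := by
    rw [hfdef]; push_cast [hle]; ring
  have hqZ : (7 : ℤ) ≤ q := by omega
  have h7 : (q : ℤ) ^ 3 ≤ q ^ 5 := pow_le_pow_right₀ (by linarith) (by norm_num)
  have h8 : (q : ℤ) ^ 6 < f := by rw [hfZ]; linarith
  have h9 : (f : ℤ) ≤ 3 * ((f / Nat.gcd 3 (q - 1) : ℕ) : ℤ) := by
    rw [← hffZ, mul_comm]
    exact mul_le_mul_of_nonneg_right hdle hf'0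
  change (1 + 1 : ℤ) * ((q : ℤ) ^ 6 - 1) < _
  nlinarith

theorem s2374 {F : Type*} [Field F] [Fintype F] (q : ℕ) (hF : Fintype.card F = q) :
    ∃ H : Subgroup ↥(Cfsg.Lie.chevE7.group F), IsCyclic ↥H ∧ Nat.card ↥H =
      (q ^ 4 - q ^ 2 + 1) * (q ^ 3 + 1) / Nat.gcd 2 (q - 1) ∧
      Subgroup.centralizer (H : Set ↥(Cfsg.Lie.chevE7.group F)) = H := by
  have hq2 : 2 ≤ q := by rw [← hF]; exact Fintype.one_lt_card
  have hle : q ^ 2 ≤ q ^ 4 := Nat.pow_le_pow_right (by omega) (by norm_num)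
  set f := (q ^ 4 - q ^ 2 + 1) * (q ^ 3 + 1) with hfdef
  have hfv : fv H22.TorE7.c (q : ℤ) = (f : ℤ) := by
    have h : fv H22.TorE7.c (q : ℤ) = (q : ℤ) ^ 7 + ∑ i : Fin 7, H22.TorE7.c i * (q : ℤ) ^ (i : ℕ) := rfl
    rw [h, Fin.sum_univ_seven]
    have h0 : H22.TorE7.c (0 : Fin 7) = 1 := rfl
    have h1 : H22.TorE7.c (1 : Fin 7) = 0 := rfl
    have h2 : H22.TorE7.c (2 : Fin 7) = -1 := rfl
    have h3 : H22.TorE7.c (3 : Fin 7) = 1 := rfl
    have h4 : H22.TorE7.c (4 : Fin 7) = 1 := rfl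
    have h5 : H22.TorE7.c (5 : Fin 7) = -1 := rfl
    have h6 : H22.TorE7.c (6 : Fin 7) = 0 := rfl
    rw [h0, h1, h2, h3, h4, h5, h6, hfdef]
    push_cast [hle]
    simp
    ring
  have hd := H22.ChevTorusCard.kerE7 (F := F) hF
  have hg0 : 0 < Nat.gcd 2 (q - 1) := Nat.gcd_pos_of_pos_left _ (by norm_num)
  have hdvd : Nat.gcd 2 (q - 1) ∣ f := by
    rw [hfdef]
    apply Dvd.dvd.mul_left
    rcases (Nat.dvd_prime Nat.prime_two).1 (Nat.gcd_dvd_left 2 (q - 1)) with h | h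
    · rw [h]; exact one_dvd _
    · rw [h]
      obtain ⟨k, hk⟩ : 2 ∣ q - 1 := by rw [← h]; exact Nat.gcd_dvd_right _ _
      have hq : q = 2 * k + 1 := by omega
      rw [hq]
      exact ⟨4 * k ^ 3 + 6 * k ^ 2 + 3 * k + 1, by ring⟩
  have hff : f / Nat.gcd 2 (q - 1) * Nat.gcd 2 (q - 1) = f := Nat.div_mul_cancel hdvd
  refine main_ad (X := H22.PoinE7.rcxE7) q hF memE7 H22.ChevLex.lexE7 H22.StTab.certE7
    (fun R => psi_inj memE7 _ _ H23.SubE8.embE7 H23.SubE8.simpE7 R)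
    H22.TorE7.cyc (Or.inl rfl) f (f / Nat.gcd 2 (q - 1)) (Nat.gcd 2 (q - 1)) hfv hd hff ?_
  by_cases h2 : q = 2
  · subst h2
    have e : f / Nat.gcd 2 (2 - 1) = 117 := by norm_num [hfdef]
    rw [e]; exact H22.TorE7.div2
  by_cases h3 : q = 3
  · subst h3
    have e : f / Nat.gcd 2 (3 - 1) = 1022 := by norm_num [hfdef]
    rw [e]; exact H22.TorE7.div3
  by_cases h4 : q = 4
  · subst h4
    have e : f / Nat.gcd 2 (4 - 1) = 15665 := by norm_num [hfdef]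
    rw [e]; exact H22.TorE7.div4
  by_cases h5 : q = 5
  · subst h5
    have e : f / Nat.gcd 2 (5 - 1) = 37863 := by norm_num [hfdef]
    rw [e]; exact H22.TorE7.div5
  have h6 : q ≠ 6 := by
    rintro rfl
    have := FiniteField.isPrimePow_card F
    rw [hF] at this
    revert this
    rw [isPrimePow_nat_iff_bounded]
    decide
  by_cases h7 : q = 7
  · subst h7
    have e : f / Nat.gcd 2 (7 - 1) = 404716 := by norm_num [hfdef]
    rw [e]; exact H22.TorE7.div7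
  refine divM_large H22.TorE7.cyc (M := 2) (by norm_num) H22.TorE7.bound (by omega) ?_
  have hdle : (Nat.gcd 2 (q - 1) : ℤ) ≤ 2 := by
    exact_mod_cast Nat.gcd_le_left _ (by norm_num)
  have hffZ : ((f / Nat.gcd 2 (q - 1) : ℕ) : ℤ) * (Nat.gcd 2 (q - 1) : ℤ) = f := by exact_mod_cast hff
  have hf'0 : (0 : ℤ) ≤ ((f / Nat.gcd 2 (q - 1) : ℕ) : ℤ) := by positivity
  have hfZ : (f : ℤ) = (q : ℤ) ^ 7 - q ^ 5 + q ^ 4 + q ^ 3 - q ^ 2 + 1 := by
    rw [hfdef]; push_cast [hle]; ring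
  have hqZ : (8 : ℤ) ≤ q := by omega
  have h9 : (f : ℤ) ≤ 2 * ((f / Nat.gcd 2 (q - 1) : ℕ) : ℤ) := by
    rw [← hffZ, mul_comm]
    exact mul_le_mul_of_nonneg_right hdle hf'0
  change (2 + 1 : ℤ) * ((q : ℤ) ^ 7 - 1) < _
  have h10 : (q : ℤ) ^ 2 ≤ q ^ 3 := pow_le_pow_right₀ (by linarith) (by norm_num)
  have h11 : (0 : ℤ) ≤ (q : ℤ) ^ 5 := by positivity
  have h12 : 64 * (q : ℤ) ^ 5 ≤ q ^ 7 := by
    have : (q : ℤ) ^ 7 = q ^ 2 * q ^ 5 := by ring
    rw [this]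
    have h13 : (64 : ℤ) ≤ (q : ℤ) ^ 2 := by nlinarith
    exact mul_le_mul_of_nonneg_right h13 h11
  have h14 : (q : ℤ) ^ 7 - q ^ 5 < f := by
    rw [hfZ]
    have : (0 : ℤ) ≤ (q : ℤ) ^ 4 := by positivity
    linarith
  nlinarith

end H22.TorAdE
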