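import Cfsg.Agent.Lib.H22.TorTw
import Cfsg.Agent.Lib.H22.TwD4b
import Cfsg.Agent.Lib.H47.TwFix
import Cfsg.Agent.Lib.H47.TorAll

/-!
# Self-centralising cyclic tori of ³D₄(q)
-/

set_option autoImplicit false
set_option linter.style.haveILetI false
set_option linter.unusedSectionVars false
set_option linter.unusedSimpArgs false
set_option linter.unusedVariables false

namespace H22.TorD4

open H22.RGD H22.Coord H22.RCCheck H22.RCComb H22.ChevTri H22.ChevRel H22.ChevSys H22.ChevMain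
open H22.ChevStd H22.ChevSolv H22.ChevUni H22.St H22.TwChev H22.TwSt H22.RCPack H22.TwTab H22.TwX
open H22.TwDat H22.TwAut H22.ChevTorus H22.TwThm H22.TwPerf H22.TwMisc
open H22.Lang H22.LangChev H22.TorusLat H22.TorusCore H22.TorusFix H22.TwStein H22.TorTw
open Cfsg.Lie (ChevalleyDatum)
open scoped MatrixGroups Matrix

/-- over an algebraically closed field every character comes from the torus -/
theorem Tz_all {D : ChevalleyDatum} {K : Type*} [Field K] [IsAlgClosed K] (R : Rel D K) (X : RCX D)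
    (z : Fin D.rank → Kˣ) : Tz X z ∈ Hs R := by
  obtain ⟨h, hh, hact⟩ := H47.TorAll.exists_Hs R X z
  obtain ⟨z', rfl⟩ := Hs_le_Tz R X hh
  have h1 : ∀ r : Fin D.nroots, E z' (v X r) = E z (v X r) := by
    intro r
    have h2 := hact r r.2 1
    rw [Tz_conj R X hh] at h2
    have h3 := xg_inj R X.rc r.2 h2
    exact Units.ext (mul_right_cancel₀ one_ne_zero h3)
  have h2 : Tz (K := K) X z = Tz X z' := by
    apply Units.ext
    rw [Tz_val, Tz_val]
    congr 1
    funext x
    rcases x with x | x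
    · rfl
    · simp only [Sum.elim_inr]
      rw [h1]
  rw [h2]; exact hh

local notation "D4" => Cfsg.Lie.chevD4
local notation "X4" => H22.PoinD4.rcxD4
local notation "G2X" => H22.PoinG2.rcxG2
local notation "Z4" => H22.ChevLex.lexD4
local notation "W4" => H22.TwD4.certD4'
local notation "C2" => comb G2X
local notation "S4" => H23.ChevSym.symD4aS

section any

variable {K : Type*} [Field K]

/-- the symmetry on the roots -/
noncomputable def τ : Equiv.Perm (Fin (D4).nroots) where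
  toFun r := ⟨(S4).rho r, (S4).rho_lt r r.2⟩
  invFun r := ⟨(S4).rinv r, (S4).rinv_lt r r.2⟩
  left_inv r := Fin.ext ((S4).rinv_rho r r.2)
  right_inv r := Fin.ext ((S4).rho_rinv r r.2)

/-- the symmetry on the simple roots -/
noncomputable def π : Equiv.Perm (Fin (D4).rank) where
  toFun r := ⟨(S4).pi r, (S4).pi_lt r r.2⟩
  invFun r := ⟨(S4).pinv r, (S4).pinv_lt r r.2⟩
  left_inv r := Fin.ext ((S4).pinv_pi r r.2)
  right_inv r := Fin.ext ((S4).pi_pinv r r.2)

/-- the Steinberg endomorphism -/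
noncomputable def sg (φ : K →+* K) : GL (D4).Idx K →* GL (D4).Idx K :=
  (MulAut.conj ((S4).gP K)).toMonoidHom.comp (Matrix.GeneralLinearGroup.map φ)

theorem sg_apply (φ : K →+* K) (g : GL (D4).Idx K) :
    sg φ g = (S4).gP K * Matrix.GeneralLinearGroup.map φ g * ((S4).gP K)⁻¹ := rfl

theorem hs_simple : ∀ i < 4, H23.ChevSym.symD4a.rh ((D4).simple i) =
    (D4).simple (H23.ChevSym.symD4a.p i) ∧ H23.ChevSym.symD4a.e ((D4).simple i) = 1 := by
  decide +kernel

theorem sg_x (R : Rel D4 K) (φ : K →+* K) (r : Fin (D4).nroots) (t : K) :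
    sg φ (xg R r t) = xg R (τ r) ((((S4).ep r : ℤ) : K) * φ t) := by
  rw [sg_apply]
  apply Units.ext
  have h1 : ((Matrix.GeneralLinearGroup.map φ (xg R r t) : GL (D4).Idx K) :
      Matrix (D4).Idx (D4).Idx K) = (D4).x K r (φ t) := H22.ChevField.x_map φ r t
  rw [(S4).conj_x (H23.ChevAll.core D4 H22.TwD4.memD4) r.2 h1]
  rfl

theorem rm (R : Rel D4 K) (φ : K →+* K) (hφ : Function.Surjective φ) :
    RM R X4 τ π (fun r => (((S4).ep r : ℤ) : K)) φ (sg φ) where
  x := sg_x R φ
  εne := fun r => by rcases (S4).ep_sq r r.2 with h | h <;> rw [h] <;> simp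
  φsurj := hφ
  simple := fun i => Fin.ext (hs_simple i i.2).1
  neg := fun r => Fin.ext ((S4).rho_neg r r.2)
  εs := fun i => by
    have h : (S4).ep ((D4).simple i) = 1 := (hs_simple i i.2).2
    change (((S4).ep ((D4).simple i) : ℤ) : K) = 1
    rw [h]; simp
  εn := fun i => by
    have h : (S4).ep ((D4).simple i) = 1 := (hs_simple i i.2).2
    change (((S4).ep ((D4).neg ((D4).simple i)) : ℤ) : K) = 1
    rw [(S4).ep_neg _ ((X4).rc.simple_lt i i.2), h]; simp

theorem cube : ∀ r < 24, H23.ChevSym.symD4a.rh (H23.ChevSym.symD4a.rh (H23.ChevSym.symD4a.rh r)) = r ∧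
    H23.ChevSym.symD4a.e (H23.ChevSym.symD4a.rh (H23.ChevSym.symD4a.rh r)) *
      (H23.ChevSym.symD4a.e (H23.ChevSym.symD4a.rh r) * H23.ChevSym.symD4a.e r) = 1 := by
  decide +kernel

theorem sg_cube (R : Rel D4 K) (φ : K →+* K) {g : GL (D4).Idx K} (hg : g ∈ (D4).group K) :
    sg φ (sg φ (sg φ g)) = Matrix.GeneralLinearGroup.map (φ.comp (φ.comp φ)) g := by
  refine group_ind (p := fun g => sg φ (sg φ (sg φ g)) =
    Matrix.GeneralLinearGroup.map (φ.comp (φ.comp φ)) g) R ?_ ?_ ?_ ?_ hg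
  · intro r t
    rw [sg_x R, sg_x R, sg_x R]
    have h2 : ((τ (τ (τ r)) : Fin (D4).nroots) : ℕ) = r := (cube r r.2).1
    have h3 : (((S4).ep (τ (τ r) : Fin (D4).nroots) : ℤ) : K) *
        ((((S4).ep (τ r : Fin (D4).nroots) : ℤ) : K) * (((S4).ep r : ℤ) : K)) = 1 := by
      rw [← Int.cast_mul, ← Int.cast_mul]
      have := (cube r r.2).2
      have e : (S4).ep (τ (τ r) : Fin (D4).nroots) * ((S4).ep (τ r : Fin (D4).nroots) *
        (S4).ep r) = 1 := this
      rw [e]; simp
    rw [h2]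
    have h4 : Matrix.GeneralLinearGroup.map (φ.comp (φ.comp φ)) (xg R r t) =
        xg R r (φ (φ (φ t))) := Units.ext (H22.ChevField.x_map _ _ _)
    rw [h4]
    congr 1
    simp only [map_mul, map_intCast]
    rw [← mul_assoc, ← mul_assoc, mul_assoc (((S4).ep (τ (τ r) : Fin (D4).nroots) : ℤ) : K), h3,
      one_mul]
  · simp only [map_one]
  · intro a b ha hb
    simp only [map_mul, ha, hb]
  · intro a ha
    simp only [map_inv, ha]

theorem gP_map {K' : Type*} [Field K'] (j : K' →+* K) :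
    Matrix.GeneralLinearGroup.map j ((S4).gP K') = (S4).gP K := by
  apply Units.ext
  ext a b
  change j (((S4).P.map (Int.castRingHom K')) a b) = ((S4).P.map (Int.castRingHom K)) a b
  simp

theorem sg_map {K' : Type*} [Field K'] (j : K' →+* K) (φ' : K' →+* K') (φ : K →+* K)
    (h : ∀ x, j (φ' x) = φ (j x)) (g : GL (D4).Idx K') :
    Matrix.GeneralLinearGroup.map j (sg φ' g) = sg φ (Matrix.GeneralLinearGroup.map j g) := by
  rw [sg_apply, sg_apply, map_mul, map_mul, map_inv, gP_map]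
  congr 2
  apply Units.ext
  ext a b
  exact h _

theorem A_val (R : Rel D4 K) (hm : ∀ r < (D4).nroots, ∀ c d : K, c ≠ 0 → d ≠ 0 →
      (D4).hMat K r c * (D4).hMat K r d = (D4).hMat K r (c * d)) (φ : K →+* K)
    (hφ : Function.Surjective φ) (g : (D4).group K) :
    (((H22.TwD4.A R hm φ hφ).σ g : (D4).group K) : GL (D4).Idx K) = sg φ g := by
  rw [sg_apply]
  exact (Classical.choose_spec ((S4).graphAut (H23.ChevAll.core D4 H22.TwD4.memD4) K)).1
    (H22.ChevField.fieldHom D4 φ g)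

end any


section fin

variable {K : Type*} [Field K] [Finite K] (R : Rel D4 K)
  (hm : ∀ r < (D4).nroots, ∀ c d : K, c ≠ 0 → d ≠ 0 →
      (D4).hMat K r c * (D4).hMat K r d = (D4).hMat K r (c * d))
  (φ : K →+* K) (hφ : Function.Surjective φ)

open H22.TwD4

theorem lift' {q : ℕ} (hq : ∀ t, φ t = t ^ q) (c : Fin (D4).rank → Kˣ)
    (hc : (A R hm φ hφ).τ c * c⁻¹ ∈ ((St R hm).psi X4 Z4 W4).ker) :
    ∃ z ∈ ((St R hm).psi X4 Z4 W4).ker, (A R hm φ hφ).τ (c * z) = c * z := by
  have hk : ∀ z ∈ ((St R hm).psi X4 Z4 W4).ker, (A R hm φ hφ).τ z ∈ ((St R hm).psi X4 Z4 W4).ker := by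
    intro z hz
    have h := (A R hm φ hφ).σ_psi Z4 W4 z
    have hz' : (St R hm).psi X4 Z4 W4 z = 1 := hz
    have h' : (A R hm φ hφ).σ ((St R hm).psi X4 Z4 W4 z) = 1 := by rw [hz', map_one]
    exact h.symm.trans h'
  let f : ((St R hm).psi X4 Z4 W4).ker → ((St R hm).psi X4 Z4 W4).ker := fun z =>
    ⟨(A R hm φ hφ).τ z * (z : Fin (D4).rank → Kˣ)⁻¹, mul_mem (hk z z.2) (inv_mem z.2)⟩
  have hf : Function.Injective f := by
    intro a b hab
    have h1 : (A R hm φ hφ).τ a * (a : Fin (D4).rank → Kˣ)⁻¹ =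
        (A R hm φ hφ).τ b * (b : Fin (D4).rank → Kˣ)⁻¹ := congrArg Subtype.val hab
    have h2 : (A R hm φ hφ).τ ((a : Fin (D4).rank → Kˣ) * (b : Fin (D4).rank → Kˣ)⁻¹) =
        (a : Fin (D4).rank → Kˣ) * (b : Fin (D4).rank → Kˣ)⁻¹ := by
      rw [map_mul, map_inv]
      rw [mul_inv_eq_iff_eq_mul] at h1
      rw [h1]
      rw [mul_assoc, mul_assoc, mul_comm ((A R hm φ hφ).τ b), mul_assoc, mul_assoc,
        inv_mul_cancel, mul_one, mul_comm]
    have h3 := ker_inf R hm φ hφ _ (mul_mem a.2 (inv_mem b.2)) h2 hq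
    exact Subtype.ext (mul_inv_eq_one.1 h3)
  haveI : Finite (Fin (D4).rank → Kˣ) := inferInstance
  obtain ⟨z, hz⟩ := (Finite.injective_iff_surjective.1 hf) ⟨_, inv_mem hc⟩
  refine ⟨z, z.2, ?_⟩
  have h1 : (A R hm φ hφ).τ z * (z : Fin (D4).rank → Kˣ)⁻¹ = ((A R hm φ hφ).τ c * c⁻¹)⁻¹ :=
    congrArg Subtype.val hz
  rw [mul_inv_eq_iff_eq_mul] at h1
  rw [map_mul, h1, mul_inv, inv_inv]
  calc (A R hm φ hφ).τ c * (((A R hm φ hφ).τ c)⁻¹ * c * z) =
      ((A R hm φ hφ).τ c * ((A R hm φ hφ).τ c)⁻¹) * (c * z) := by simp only [mul_assoc]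
    _ = _ := by rw [mul_inv_cancel, one_mul]

theorem hfix' {q : ℕ} (hq : ∀ t, φ t = t ^ q) {L : Subgroup ↥((D4).group K)}
    (h1 : ∀ J : Fin 2, X1 ((St R hm).stSys X4 Z4 W4) (A R hm φ hφ).σ (E R hm φ hφ).clF ((C2).simple J) ≤ L)
    (h2 : ∀ J : Fin 2, X1 ((St R hm).stSys X4 Z4 W4) (A R hm φ hφ).σ (E R hm φ hφ).clF
      ((C2).neg ((C2).simple J)) ≤ L) :
    (St R hm).Hb ⊓ fx (A R hm φ hφ).σ ≤ L := by
  rw [(A R hm φ hφ).fixed_torus Z4 W4 (lift' R hm φ hφ hq)]
  rintro _ ⟨c, hc, rfl⟩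
  obtain ⟨c2, c3, c0, c1⟩ := τ_fixed R hm φ hφ (c := c) hc
  have h3 : φ (φ (φ (c j0 : K))) = c j0 := by rw [← c2, ← c3, ← c0]
  rw [psi_list Z4 W4 [j0, j2, j3, j1] (by decide) (by decide) c]
  have hs : ∀ t, φ (φ (φ t)) = t → xs R hm φ 18 13 12 t ∈ L := fun t h3 =>
    h1 0 ((m0 R hm φ hφ).2 ⟨t, h3, rfl⟩)
  have hs' : ∀ t, φ (φ (φ t)) = t → xs R hm φ 5 10 11 t ∈ L := fun t h3 =>
    h2 0 ((n0 R hm φ hφ).2 ⟨t, h3, rfl⟩)
  have hl : ∀ t, φ t = t → (St R hm).xb 14 t ∈ L := fun t ht => h1 1 ((m1 R hm φ hφ).2 ⟨t, ht, rfl⟩)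
  have hl' : ∀ t, φ t = t → (St R hm).xb 9 t ∈ L := fun t ht => h2 1 ((n1 R hm φ hφ).2 ⟨t, ht, rfl⟩)
  have p1 : hP (St R hm) [18, 13, 12] (fun r => if r = 18 then (c j0 : K) else if r = 13 then c j2 else c j3) ∈ L := by
    apply hP_mem
    · simp only [List.pairwise_cons, List.mem_cons, List.not_mem_nil, or_false, forall_eq_or_imp,
        forall_eq, List.Pairwise.nil, and_true, IsEmpty.forall_iff, implies_true]
      exact ⟨⟨o1 R hm, o2 R hm⟩, o3 R hm⟩
    · have := hs (c j0) h3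
      unfold xs at this
      rw [← c2, ← c3] at this
      simpa [xP, mul_assoc] using this
    · have := hs' (-(c j0 : K)⁻¹) (by simp only [map_neg, map_inv₀, h3])
      unfold xs at this
      rw [map_neg, map_inv₀, ← c2, map_neg, map_inv₀, ← c3] at this
      have e1 : (D4).neg 18 = 5 := rfl
      have e2 : (D4).neg 13 = 10 := rfl
      have e3 : (D4).neg 12 = 11 := rfl
      simpa [xN, mul_assoc, e1, e2, e3] using this
    · have := hs (-1) (by simp)
      unfold xs at this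
      simpa [xP, mul_assoc] using this
    · have := hs' 1 (by simp)
      unfold xs at this
      have e1 : (D4).neg 18 = 5 := rfl
      have e2 : (D4).neg 13 = 10 := rfl
      have e3 : (D4).neg 12 = 11 := rfl
      simpa [xN, mul_assoc, e1, e2, e3] using this
  have p2 : hP (St R hm) [14] (fun _ => (c j1 : K)) ∈ L := by
    have e1 : (D4).neg 14 = 9 := rfl
    apply hP_mem
    · exact List.pairwise_singleton _ _
    · simpa [xP] using hl _ c1.symm
    · have := hl' (-(c j1 : K)⁻¹) (by rw [map_neg, map_inv₀, ← c1])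
      simpa [xN, e1] using this
    · simpa [xP] using hl (-1) (by simp)
    · simpa [xN, e1] using hl' 1 (by simp)
  have e : ([j0, j2, j3, j1].map fun i : Fin (D4).rank => (St R hm).hb ((D4).simple i) (c i : K)).prod =
      hP (St R hm) [18, 13, 12] (fun r => if r = 18 then (c j0 : K) else if r = 13 then c j2 else c j3) *
      hP (St R hm) [14] (fun _ => (c j1 : K)) := by
    have e0 : (D4).simple (j0 : Fin (D4).rank) = 18 := rfl
    have e1 : (D4).simple (j1 : Fin (D4).rank) = 14 := rfl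
    have e2 : (D4).simple (j2 : Fin (D4).rank) = 13 := rfl
    have e3 : (D4).simple (j3 : Fin (D4).rank) = 12 := rfl
    simp only [hP, List.map_cons, List.map_nil, List.prod_cons, List.prod_nil, mul_one, e0, e1, e2, e3]
    simp [mul_assoc]
  have := L.mul_mem p1 p2
  rw [← e] at this
  exact this

/-- the fixed points are generated by the fixed points in the simple classes -/
theorem fixed_mem {q : ℕ} (hq : ∀ t, φ t = t ^ q) {L : Subgroup ↥((D4).group K)}
    (h1 : ∀ t, φ (φ (φ t)) = t → xs R hm φ 18 13 12 t ∈ L)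
    (h2 : ∀ t, φ (φ (φ t)) = t → xs R hm φ 5 10 11 t ∈ L)
    (h3 : ∀ t, φ t = t → (St R hm).xb 14 t ∈ L)
    (h4 : ∀ t, φ t = t → (St R hm).xb 9 t ∈ L) {g : ↥((D4).group K)}
    (hg : (A R hm φ hφ).σ g = g) : g ∈ L := by
  have k1 : ∀ J : Fin 2, X1 ((St R hm).stSys X4 Z4 W4) (A R hm φ hφ).σ (E R hm φ hφ).clF
      ((C2).simple J) ≤ L := by
    intro J
    rcases two J with rfl | rfl
    · intro g hg
      obtain ⟨t, ht, rfl⟩ := (m0 R hm φ hφ).1 hg
      exact h1 t ht
    · intro g hg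
      obtain ⟨t, ht, rfl⟩ := (m1 R hm φ hφ).1 hg
      exact h3 t ht
  have k2 : ∀ J : Fin 2, X1 ((St R hm).stSys X4 Z4 W4) (A R hm φ hφ).σ (E R hm φ hφ).clF
      ((C2).neg ((C2).simple J)) ≤ L := by
    intro J
    rcases two J with rfl | rfl
    · intro g hg
      obtain ⟨t, ht, rfl⟩ := (n0 R hm φ hφ).1 hg
      exact h2 t ht
    · intro g hg
      obtain ⟨t, ht, rfl⟩ := (n1 R hm φ hφ).1 hg
      exact h4 t ht
  refine (H22.TwD4.T R hm φ hφ).Γ_le (hfix' R hm φ hφ hq k1 k2) k1 k2 ?_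
  refine H47.TwFix.fx_le (H22.TwD4.T R hm φ hφ) (longest G2X) ?_ ?_ (by
    rw [(St R hm).stSys_Γ]; exact Subgroup.mem_top _) hg
  · have : ∀ i : Fin 4, ∃ J : Fin 2, (E R hm φ hφ).clF ((comb X4).simple i) = (C2).simple J := by
      intro i
      have h : ∀ i : Fin 4, ∃ J : Fin 2, ttD4.c ((D4).simple i) = Cfsg.Lie.chevG2.simple J := by
        decide +kernel
      obtain ⟨J, hJ⟩ := h i
      exact ⟨J, Fin.ext hJ⟩
    exact this
  · have : ∀ (J : Fin 2) (r : Fin 24), (E R hm φ hφ).clF r = (C2).simple J →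
        ∃ i : Fin 4, r = (comb X4).simple i := by
      intro J r hr
      have h : ∀ (J : Fin 2) (r : Fin 24), ttD4.c r = Cfsg.Lie.chevG2.simple J →
          ∃ i : Fin 4, (r : ℕ) = (D4).simple i := by
        decide +kernel
      obtain ⟨i, hi⟩ := h J r (congrArg Fin.val hr)
      exact ⟨i, Fin.ext hi⟩
    exact this

end fin

section main

variable (F : Type*) [Field F] [Fintype F] (q : ℕ)

/-- the embedding in the group over the algebraic closure -/
noncomputable def ι : ↥(Cfsg.Lie.twistedD4 F q) →* GL (D4).Idx (AlgebraicClosure F) :=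
  (Matrix.GeneralLinearGroup.map (algebraMap F (AlgebraicClosure F))).comp
    (Cfsg.Lie.twistedD4 F q).subtype

variable {F q}

theorem ι_inj : Function.Injective (ι F q) := by
  intro a b h
  apply Subtype.ext
  apply Units.ext
  ext i j
  have h1 := congrArg (fun g : GL (D4).Idx (AlgebraicClosure F) =>
    (g : Matrix (D4).Idx (D4).Idx (AlgebraicClosure F)) i j) h
  exact (algebraMap F (AlgebraicClosure F)).injective h1

theorem map_wg {k k' : Type*} [Field k] [Field k'] (R : Rel D4 k) (R' : Rel D4 k') (f : k →+* k')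
    (w : List (ℕ × k)) : Matrix.GeneralLinearGroup.map f (wg R w) =
      wg R' (w.map fun p => (p.1, f p.2)) := by
  unfold wg
  rw [map_list_prod, List.map_map, List.map_map]
  congr 1
  apply List.map_congr_left
  intro p _
  exact Units.ext (H22.ChevField.x_map f _ _)

theorem ι_word (Rb : Rel D4 (AlgebraicClosure F)) {w : List (ℕ × F)} (hw : w ∈ Cfsg.Lie.d4Words F q) :
    ∃ y, ι F q y = wg Rb (w.map fun p => (p.1, algebraMap F (AlgebraicClosure F) p.2)) := by
  refine ⟨⟨wg (H22.TwD4.RR F) w, Subgroup.subset_closure ⟨w, hw, ?_⟩⟩, ?_⟩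
  · rw [wg_val]
  · exact map_wg _ _ _ _

theorem fixed_pts (hq : IsPrimePow q) (hF : Fintype.card F = q ^ 3)
    (φb : AlgebraicClosure F →+* AlgebraicClosure F) (hφb : ∀ x, φb x = x ^ q)
    {g : GL (D4).Idx (AlgebraicClosure F)} (hg : g ∈ (D4).group (AlgebraicClosure F))
    (hf : sg φb g = g) : ∃ y, ι F q y = g := by
  obtain ⟨K', hfin, g', hg', rfl⟩ := exists_finite (F := F) H22.TwD4.memD4 hg
  have hcard : Nat.card K' = q ^ (3 * Module.finrank F K') := by
    rw [Module.natCard_eq_pow_finrank (K := F) (V := K'), Nat.card_eq_fintype_card, hF, pow_mul]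
  have hne : 3 * Module.finrank F K' ≠ 0 := by
    haveI : FiniteDimensional F K' := Module.Finite.of_finite
    have : 0 < Module.finrank F K' := Module.finrank_pos
    omega
  obtain ⟨φ, hφ, hφq⟩ := exists_frob hq hne hcard
  have hinj : Function.Injective (Matrix.GeneralLinearGroup.map (n := (D4).Idx)
      (algebraMap K' (AlgebraicClosure F))) := by
    intro a b h
    apply Units.ext
    ext i j
    have h1 := congrArg (fun g : GL (D4).Idx (AlgebraicClosure F) =>
      (g : Matrix (D4).Idx (D4).Idx (AlgebraicClosure F)) i j) h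
    exact Subtype.ext_iff.1 ((algebraMap K' (AlgebraicClosure F)).injective h1)
  have hcomm : ∀ x, algebraMap K' (AlgebraicClosure F) (φ x) =
      φb (algebraMap K' (AlgebraicClosure F) x) := by
    intro x; rw [hφq, hφb, map_pow]
  have hfix : sg φ g' = g' := by
    apply hinj
    rw [sg_map _ φ φb hcomm, hf]
  have hm := H22.St.hmul_all (K := K') _ H22.TwD4.memD4
  have Rb := H22.TwD4.RR (AlgebraicClosure F)
  let L : Subgroup ↥((D4).group K') := (ι F q).range.comap
    ((Matrix.GeneralLinearGroup.map (algebraMap K' (AlgebraicClosure F))).comp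
      ((D4).group K').subtype)
  have hφ2 : ∀ t, φ (φ t) = t ^ q ^ 2 := by
    intro t; rw [hφq, hφq, ← pow_mul, pow_two]
  have hbase : ∀ t : K', φ (φ (φ t)) = t → ∃ y : F, algebraMap F (AlgebraicClosure F) y =
      algebraMap K' (AlgebraicClosure F) t := by
    intro t ht
    apply exists_of_pow_card
    rw [← map_pow, hF]
    congr 1
    rw [hφ2, hφq, ← pow_mul] at ht
    rw [← ht]
    congr 1
    ring
  have hL : ∀ (w : List (ℕ × F)), w ∈ Cfsg.Lie.d4Words F q → ∀ w' : List (ℕ × K'),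
      w'.map (fun p => (p.1, algebraMap K' (AlgebraicClosure F) p.2)) =
        w.map (fun p => (p.1, algebraMap F (AlgebraicClosure F) p.2)) →
      (H22.TwD4.St (H22.TwD4.RR K') hm).wb w' ∈ L := by
    intro w hw w' hw'
    obtain ⟨y, hy⟩ := ι_word Rb hw
    refine ⟨y, ?_⟩
    rw [hy, ← hw', ← map_wg (H22.TwD4.RR K')]
    exact congrArg _ (coe_wb (Q := (X4).rc) (hmul := hm) w').symm
  have h3w : ∀ r s v : ℕ, (r, s, v) ∈ [(18, 13, 12), (5, 10, 11)] → ∀ t : K', φ (φ (φ t)) = t →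
      H22.TwD4.xs (H22.TwD4.RR K') hm φ r s v t ∈ L := by
    intro r s v hrs t ht
    obtain ⟨y, hy⟩ := hbase t ht
    have e : H22.TwD4.xs (H22.TwD4.RR K') hm φ r s v t =
        (H22.TwD4.St (H22.TwD4.RR K') hm).wb [(r, t), (s, t ^ q), (v, t ^ q ^ 2)] := by
      unfold H22.TwD4.xs
      rw [hφ2, hφq]
      simp [StG.wb, mul_assoc]
    rw [e]
    refine hL [(r, y), (s, y ^ q), (v, y ^ q ^ 2)] (Or.inr ⟨y, (r, s, v), hrs, rfl⟩) _ ?_
    simp only [List.map_cons, List.map_nil, map_pow, hy]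
  have h1w : ∀ r : ℕ, r ∈ [14, 9] → ∀ t : K', φ t = t →
      (H22.TwD4.St (H22.TwD4.RR K') hm).xb r t ∈ L := by
    intro r hr t ht
    obtain ⟨y, hy⟩ := hbase t (by rw [ht, ht, ht])
    have e : (H22.TwD4.St (H22.TwD4.RR K') hm).xb r t =
        (H22.TwD4.St (H22.TwD4.RR K') hm).wb [(r, t)] := by simp [StG.wb]
    rw [e]
    refine hL [(r, y)] (Or.inl ⟨y, ?_, r, hr, rfl⟩) _ ?_
    · apply (algebraMap F (AlgebraicClosure F)).injective
      rw [map_pow, hy, ← map_pow, ← hφq, ht]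
    · simp only [List.map_cons, List.map_nil, hy]
  have := fixed_mem (H22.TwD4.RR K') hm φ hφ hφq (L := L)
    (h3w 18 13 12 (by simp)) (h3w 5 10 11 (by simp)) (h1w 14 (by simp)) (h1w 9 (by simp))
    (g := ⟨g', hg'⟩) (Subtype.ext ((A_val _ hm φ hφ ⟨g', hg'⟩).trans hfix))
  exact this

theorem ι_group (hq : IsPrimePow q) (hF : Fintype.card F = q ^ 3)
    (φb : AlgebraicClosure F →+* AlgebraicClosure F) (hφb : ∀ x, φb x = x ^ q)
    (y : ↥(Cfsg.Lie.twistedD4 F q)) :
    ι F q y ∈ (D4).group (AlgebraicClosure F) ∧ sg φb (ι F q y) = ι F q y := by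
  have Rb := H22.TwD4.RR (AlgebraicClosure F)
  obtain ⟨g, hg⟩ := y
  have key : g ∈ (((D4).group (AlgebraicClosure F)) ⊓ (sg φb).eqLocus (MonoidHom.id _)).comap
      (Matrix.GeneralLinearGroup.map (algebraMap F (AlgebraicClosure F))) := by
    refine (?_ : Cfsg.Lie.twistedD4 F q ≤ _) hg
    unfold Cfsg.Lie.twistedD4 ChevalleyDatum.genSubgroup
    rw [Subgroup.closure_le]
    rintro g ⟨w, hw, hg⟩
    have e : g = wg (H22.TwD4.RR F) w := Units.ext (by rw [hg, wg_val])
    rw [e]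
    have hwm : ∀ w : List (ℕ × AlgebraicClosure F), wg Rb w ∈ (D4).group (AlgebraicClosure F) := by
      intro w
      unfold wg
      apply Subgroup.list_prod_mem
      intro x hx
      obtain ⟨p, _, rfl⟩ := List.mem_map.1 hx
      exact H22.TwChev.xg_mem_group' Rb _ _
    refine ⟨?_, ?_⟩
    · rw [SetLike.mem_coe, map_wg (H22.TwD4.RR F) Rb]
      exact hwm _
    · change sg φb (Matrix.GeneralLinearGroup.map _ _) = _
      rw [map_wg (H22.TwD4.RR F) Rb]
      have hx1 : ∀ r r' : ℕ, r < 24 → H23.ChevSym.symD4a.rh r = r' → H23.ChevSym.symD4a.e r = 1 →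
          ∀ t, sg φb (xg Rb r t) = xg Rb r' (t ^ q) := by
        intro r r' hr h1 h2 t
        have h3 := sg_x Rb φb ⟨r, hr⟩ t
        have h4 : (S4).ep r = 1 := h2
        have h5 : ((τ ⟨r, hr⟩ : Fin (D4).nroots) : ℕ) = r' := h1
        simp only [h4, h5, Int.cast_one, one_mul, hφb] at h3
        exact h3
      have hm := H22.St.hmul_all (K := AlgebraicClosure F) _ H22.TwD4.memD4
      have hcomm : ∀ r s : ℕ, Orth (grp Rb (X4).rc hm) r s → ∀ t u,
          xg Rb r t * xg Rb s u = xg Rb s u * xg Rb r t := by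
        intro r s h t u
        exact congrArg Subtype.val (h t u).1.eq
      have h3w : ∀ r s v : ℕ, r < 24 → s < 24 → v < 24 → H23.ChevSym.symD4a.rh r = s →
          H23.ChevSym.symD4a.rh s = v → H23.ChevSym.symD4a.rh v = r →
          H23.ChevSym.symD4a.e r = 1 → H23.ChevSym.symD4a.e s = 1 →
          H23.ChevSym.symD4a.e v = 1 → Orth (grp Rb (X4).rc hm) r s →
          Orth (grp Rb (X4).rc hm) r v → ∀ t : F,
          sg φb (wg Rb ([(r, t), (s, t ^ q), (v, t ^ q ^ 2)].map
            fun p => (p.1, algebraMap F (AlgebraicClosure F) p.2))) =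
          wg Rb ([(r, t), (s, t ^ q), (v, t ^ q ^ 2)].map
            fun p => (p.1, algebraMap F (AlgebraicClosure F) p.2)) := by
        intro r s v hr hs hv h1 h2 h3 e1 e2 e3 o1 o2 t
        have ht : ((algebraMap F (AlgebraicClosure F) t) ^ q ^ 2) ^ q =
            algebraMap F (AlgebraicClosure F) t := by
          rw [← pow_mul, ← map_pow]
          congr 1
          have := FiniteField.pow_card t
          rwa [hF, pow_succ] at this
        unfold wg
        simp only [List.map_cons, List.map_nil, List.prod_cons, List.prod_nil, mul_one, map_mul,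
          map_pow]
        rw [hx1 r s hr h1 e1, hx1 s v hs h2 e2, hx1 v r hv h3 e3, ht,
          ← pow_mul, ← pow_two, ← mul_assoc, ← mul_assoc, mul_assoc, ← hcomm r v o2, ← mul_assoc,
          ← hcomm r s o1]
      rcases hw with ⟨t, ht, r, hr, rfl⟩ | ⟨t, rs, hrs, rfl⟩
      · have ht' : (algebraMap F (AlgebraicClosure F) t) ^ q =
            algebraMap F (AlgebraicClosure F) t := by rw [← map_pow, ht]
        unfold wg
        simp only [List.map_cons, List.map_nil, List.prod_cons, List.prod_nil, mul_one]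
        simp only [List.mem_cons, List.not_mem_nil, or_false] at hr
        rcases hr with rfl | rfl
        · exact (hx1 14 14 (by norm_num) rfl rfl _).trans (by rw [ht']; rfl)
        · exact (hx1 9 9 (by norm_num) rfl rfl _).trans (by rw [ht']; rfl)
      · simp only [List.mem_cons, List.not_mem_nil, or_false] at hrs
        rcases hrs with rfl | rfl
        · exact h3w 18 13 12 (by norm_num) (by norm_num) (by norm_num) rfl rfl rfl rfl rfl rfl
            (H22.TwD4.o1 Rb hm) (H22.TwD4.o2 Rb hm) t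
        · exact h3w 5 10 11 (by norm_num) (by norm_num) (by norm_num) rfl rfl rfl rfl rfl rfl
            (H22.TwD4.o4 Rb hm) (H22.TwD4.o5 Rb hm) t
  exact ⟨key.1, key.2⟩

end main

end H22.TorD4
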