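import Cfsg.Agent.Lib.H22.TorD4

/-!
# The self-centralising cyclic torus of ³D₄(q)
-/

set_option autoImplicit false
set_option linter.unusedVariables false

namespace H22.TorD4

open H22.RGD H22.Coord H22.RCCheck H22.RCComb H22.ChevTri H22.ChevRel H22.ChevSys H22.ChevMain
open H22.ChevStd H22.ChevUni H22.ChevTorus
open H22.Lang H22.LangChev H22.TorusLat H22.TorusCore H22.TorusFix H22.TwStein H22.TorTw
open Cfsg.Lie (ChevalleyDatum)
open scoped MatrixGroups Matrix

local notation "D4" => Cfsg.Lie.chevD4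
local notation "X4" => H22.PoinD4.rcxD4

/-- permutation of the coordinates -/
def Pt : (Fin (D4).rank → ℤ) →+ (Fin (D4).rank → ℤ) where
  toFun u := fun j => u ⟨H23.ChevSym.symD4a.q j, by
    have : ∀ j < 4, H23.ChevSym.symD4a.q j < 4 := by decide
    exact this j j.2⟩
  map_zero' := rfl
  map_add' _ _ := rfl

theorem v_τ (r : Fin (D4).nroots) : v X4 (τ r) = Pt (v X4 r) := by
  have h : ∀ (r : Fin 24) (j : Fin 4), (X4).rc.co (H23.ChevSym.symD4a.rh r) j =
      (X4).rc.co r (H23.ChevSym.symD4a.q j) := by decide +kernel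
  funext j
  exact h r j

/-- the word -/
def L : List (Fin (D4).rank) := ([1] : List (Fin 4))

/-- the twisted automorphism of the root lattice -/
def M : (Fin (D4).rank → ℤ) →+ (Fin (D4).rank → ℤ) := (wM (coord X4).A L).comp Pt

/-- powers of `M` on the cyclic vector -/
def bt (s : ℕ) (j : Fin (D4).rank) : ℤ :=
  (([[1, 0, 0, 0], [0, 1, 1, 0], [0, 0, 0, 1], [1, 1, 0, 0], [0, 0, 1, 0]] : List (List ℤ)).getD s
    []).getD j 0

/-- inverse base change -/
def P (i j : Fin (D4).rank) : ℤ :=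
  (([[1, -1, 1, 0], [0, 0, 1, 0], [0, 0, 0, 1], [0, 1, -1, 0]] : List (List ℤ)).getD i []).getD j 0

/-- characteristic polynomial -/
def c (i : Fin (D4).rank) : ℤ := (([-1, -1, 0, 1] : List ℤ)).getD i 0

/-- the cyclic vector -/
def b : Fin (D4).nroots := (18 : Fin 24)

theorem v_b : v X4 b = bt 0 := by
  funext j
  revert j
  decide +kernel

theorem cyc : Cyc M (v X4 b) P c := by
  rw [v_b]
  exact cyc_gen M bt P c (by decide) (by decide +kernel) (by decide +kernel) (by decide +kernel)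

theorem bound : ∀ (r : Fin (D4).nroots) (i : Fin (D4).rank), |ac P (v X4 r) i| ≤ 1 := by
  decide +kernel

theorem div2 : DivM X4 M P b (fv c (((2 : ℕ) : ℤ))) ((2 : ℕ) : ℤ) := by
  refine ⟨by decide +kernel, fun r hr h => absurd h ?_⟩
  revert r
  decide +kernel

theorem fv_eq {q : ℕ} (hq : 1 ≤ q) : fv c (q : ℤ) = (((q ^ 3 - 1) * (q + 1) : ℕ) : ℤ) := by
  have h : fv c (q : ℤ) = (q : ℤ) ^ 4 + ∑ i : Fin 4, c i * (q : ℤ) ^ (i : ℕ) := rfl
  rw [h, Fin.sum_univ_four]
  have h0 : c (0 : Fin 4) = -1 := rfl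
  have h1 : c (1 : Fin 4) = -1 := rfl
  have h2 : c (2 : Fin 4) = 0 := rfl
  have h3 : c (3 : Fin 4) = 1 := rfl
  rw [h0, h1, h2, h3]
  have : 1 ≤ q ^ 3 := Nat.one_le_pow _ _ hq
  push_cast [this]
  simp
  ring

theorem div_all {q : ℕ} (hq : 2 ≤ q) : DivM X4 M P b (fv c (q : ℤ)) (q : ℤ) := by
  by_cases h2 : q = 2
  · subst h2; exact div2
  · refine divM_of_large cyc (M := 1) (by norm_num) bound (by omega) ?_
    have h : fv c (q : ℤ) = (q : ℤ) ^ 4 + ∑ i : Fin 4, c i * (q : ℤ) ^ (i : ℕ) := rfl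
    rw [h, Fin.sum_univ_four]
    have h0 : c (0 : Fin 4) = -1 := rfl
    have h1 : c (1 : Fin 4) = -1 := rfl
    have h2 : c (2 : Fin 4) = 0 := rfl
    have h3 : c (3 : Fin 4) = 1 := rfl
    rw [h0, h1, h2, h3]
    change (q : ℤ) ^ 4 ≤ _
    simp
    have h3' : (3 : ℤ) ≤ q := by omega
    nlinarith [pow_pos (by linarith : (0 : ℤ) < q) 2, pow_pos (by linarith : (0 : ℤ) < q) 3]

theorem s2376 {K : Type*} [Field K] [Fintype K] (q : ℕ) (hq : IsPrimePow q)
    (hK : Fintype.card K = q ^ 3) :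
    ∃ H : Subgroup ↥(Cfsg.Lie.twistedD4 K q), IsCyclic ↥H ∧ Nat.card ↥H = (q ^ 3 - 1) * (q + 1) ∧
      Subgroup.centralizer (H : Set ↥(Cfsg.Lie.twistedD4 K q)) = H := by
  have hq2 : 2 ≤ q := hq.two_le
  have hq' := hq
  obtain ⟨p, k, hp, hk, hpk⟩ := hq
  have hp' := hp.nat_prime
  haveI : Fact p.Prime := ⟨hp'⟩
  haveI hc : CharP K p := by
    obtain ⟨r, hr⟩ := CharP.exists K
    obtain ⟨n', hr', e⟩ := FiniteField.card K r
    rw [hK, ← hpk, ← pow_mul] at e
    have h1 : p ∣ r ^ (n' : ℕ) := by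
      rw [← e]
      exact dvd_pow_self p (Nat.mul_ne_zero hk.ne' (by norm_num))
    have h2 := (Nat.prime_dvd_prime_iff_eq hp' hr').1 (hp'.dvd_of_dvd_pow h1)
    rw [h2]; exact hr
  haveI : CharP (AlgebraicClosure K) p := charP_of_injective_algebraMap
    (algebraMap K (AlgebraicClosure K)).injective p
  let φb : AlgebraicClosure K →+* AlgebraicClosure K := iterateFrobenius (AlgebraicClosure K) p k
  have hφb : ∀ x, φb x = x ^ q := by
    intro x
    rw [← hpk]; exact iterateFrobenius_def p k x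
  have hsurj : Function.Surjective φb := by
    intro x
    obtain ⟨y, hy⟩ := IsAlgClosed.exists_pow_nat_eq x (by omega : 0 < q)
    exact ⟨y, by rw [hφb, hy]⟩
  have Rb := H22.TwD4.RR (AlgebraicClosure K)
  have M0 := rm Rb φb hsurj
  have hlang : ∀ g ∈ (D4).group (AlgebraicClosure K), ∃ x ∈ (D4).group (AlgebraicClosure K),
      x⁻¹ * sg φb x = g := by
    refine lang_conj (R := Rb) (φ := φb) (σ := sg φb) H22.ChevLex.lexD4
      ((H23.ChevSym.symD4aS).gP (AlgebraicClosure K)) hφb (fun g => rfl)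
      (fun g hg => M0.group hg) (k := 3) (Q := q ^ 3) ?_ ?_
    · calc 2 ≤ q := hq2
        _ = q ^ 1 := (pow_one q).symm
        _ ≤ q ^ 3 := Nat.pow_le_pow_right (by omega) (by norm_num)
    · intro g hg i j
      have h1 : (sg φb)^[3] g = sg φb (sg φb (sg φb g)) := rfl
      rw [h1, sg_cube Rb φb hg]
      change φb (φb (φb _)) = _
      rw [hφb, hφb, hφb, ← pow_mul, ← pow_mul]
      congr 1
      ring
  have S := M0.stein (Tz_all Rb X4) hφb hlang
  have hfv := fv_eq (q := q) (by omega)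
  have hq0 : ((q : ℕ) : AlgebraicClosure K) = 0 := by
    have h := (CharP.cast_eq_zero_iff (AlgebraicClosure K) p q).2 (by
      rw [← hpk]; exact dvd_pow_self p hk.ne')
    exact h
  have hfK : (((q ^ 3 - 1) * (q + 1) : ℕ) : AlgebraicClosure K) ≠ 0 := by
    have h := fv_cast cyc.pos c (Or.inr rfl) hq0
    rw [hfv] at h
    rwa [Int.cast_natCast] at h
  have hd := div_all hq2
  have hd1 := hd.1
  have hd2 := hd.2
  rw [hfv] at hd1 hd2
  exact cyclic_torus H22.ChevLex.lexD4 S (Tz_all Rb X4) ((comb X4).w_mem L) (M := M)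
    (fun r => (v_word L (τ r)).trans (by rw [v_τ]; rfl)) cyc hfv hfK (ι K q) ι_inj
    (ι_group hq' hK φb hφb) (fun g hg hf => fixed_pts hq' hK φb hφb hg hf) hd1 hd2

end H22.TorD4
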