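import Cfsg.Agent.Lib.H22.TorusFix
import Cfsg.Agent.Lib.H22.PoinE8

/-!
Certificate for a self-centralising cyclic torus, type E8.
-/

set_option autoImplicit false

namespace H22.TorE8

open H22.TorusLat H22.TorusCore H22.TorusFix H22.RCComb

/-- the word -/
def L : List (Fin Cfsg.Lie.chevE8.rank) := ([0, 1, 2, 3, 4, 5, 6, 7] : List (Fin 8))

/-- intermediate vectors -/
def bt (s : ℕ) (j : Fin Cfsg.Lie.chevE8.rank) : ℤ :=
  (((([2575861896, 2307426440, 2273872008, 2272823432, 2272757896, 2272753800, 2272753544, 2272753528, 2272753527, 2004318071, 2004318071, 2004318071, 2004318071, 2004313975, 2004313719, 2004313719, 2004313719, 2272749175, 2289526391, 2290574967, 2290574967, 2290574967, 2290575223, 2290575223, 2290575224, 2290575224, 2290575224, 2289526648, 2289461112, 2289461112, 2289461112, 2289461112, 2289461111, 2289461111, 2272683895, 2271635319, 2271635319, 2271635319, 2271635063, 2271635063, 2271635063, 2003199607, 1986422391, 1986422391, 1986422391, 1986418295,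 1986418295, 1986418279, 1986418279, 1986418279, 2003195495, 2004244071, 2004244071, 2004244071, 2004244071, 2004244087, 2004244087, 2272679543, 2289456759, 2289456759, 2289456759, 2289460855, 2289461111, 2289461111, 2289461112] : List ℕ).getD s 0) >>> (4 * (j : ℕ)) % 16 : ℕ) : ℤ) - 8

/-- inverse base change -/
def P (i j : Fin Cfsg.Lie.chevE8.rank) : ℤ := (([[-1, 1, 1, -2, 2, -1, 0, 1], [-1, 0, 0, 0, 0, 1, -1, 1], [0, -1, -1, 1, 0, 0, 1, -1], [1, -1, -1, 1, -1, 1, 0, 0], [0, -1, 0, 1, -1, 0, 1, -1], [1, 0, -1, 1, -1, 0, 0, 0], [0, 0, 1, -1, 1, -1, 0, 0], [-1, 2, 1, -2, 1, 0, -1, 1]] : List (List ℤ)).getD i []).getD j 0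

/-- characteristic polynomial -/
def c (i : Fin Cfsg.Lie.chevE8.rank) : ℤ := (([1, 1, 0, -1, -1, -1, 0, 1] : List ℤ)).getD i 0

/-- the cyclic vector -/
def b : Fin Cfsg.Lie.chevE8.nroots := (122 : Fin 240)

theorem v_b : v H22.PoinE8.rcxE8 b = bt 0 := by
  funext j
  revert j
  decide +kernel

theorem cyc : Cyc (wM (coord H22.PoinE8.rcxE8).A L) (v H22.PoinE8.rcxE8 b) P c := by
  rw [v_b]
  exact cyc_of _ L bt P c (by decide) (by decide +kernel) (by decide +kernel) (by decide +kernel)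

theorem bound : ∀ (r : Fin Cfsg.Lie.chevE8.nroots) (i : Fin Cfsg.Lie.chevE8.rank), |ac P (v H22.PoinE8.rcxE8 r) i| ≤ 2 := by
  decide +kernel

theorem div2 : Div H22.PoinE8.rcxE8 L P b (fv c (((2 : ℕ) : ℤ))) ((2 : ℕ) : ℤ) := by
  refine ⟨by decide +kernel, fun r hr h => absurd h ?_⟩
  revert r
  decide +kernel

theorem div3 : Div H22.PoinE8.rcxE8 L P b (fv c (((3 : ℕ) : ℤ))) ((3 : ℕ) : ℤ) := by
  refine ⟨by decide +kernel, fun r hr h => absurd h ?_⟩
  revert r
  decide +kernel

end H22.TorE8
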