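import Cfsg.Agent.Lib.H22.TorusFix
import Cfsg.Agent.Lib.H22.PoinF4

/-!
Certificate for a self-centralising cyclic torus, type F4.
-/

set_option autoImplicit false

namespace H22.TorF4

open H22.TorusLat H22.TorusCore H22.TorusFix H22.RCComb

/-- the word -/
def L : List (Fin Cfsg.Lie.chevF4.rank) := ([2, 1, 2, 0, 1, 3] : List (Fin 4))

/-- intermediate vectors -/
def bt (s : ℕ) (j : Fin Cfsg.Lie.chevF4.rank) : ℤ :=
  (((([34953, 34953, 34969, 34968, 35224, 35224, 34968, 34968, 34936, 34935, 34679, 34663, 34663, 30567, 30583, 30584, 30584, 30584, 30584, 34680, 34680, 34679, 34935, 34951, 34951] : List ℕ).getD s 0) >>> (4 * (j : ℕ)) % 16 : ℕ) : ℤ) - 8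

/-- inverse base change -/
def P (i j : Fin Cfsg.Lie.chevF4.rank) : ℤ := (([[1, 0, -1, 1], [0, 1, -2, 1], [0, 0, -1, 1], [0, 0, 0, -1]] : List (List ℤ)).getD i []).getD j 0

/-- characteristic polynomial -/
def c (i : Fin Cfsg.Lie.chevF4.rank) : ℤ := (([1, 0, 0, 0] : List ℤ)).getD i 0

/-- the cyclic vector -/
def b : Fin Cfsg.Lie.chevF4.nroots := (33 : Fin 48)

theorem v_b : v H22.PoinF4.rcxF4 b = bt 0 := by
  funext j
  revert j
  decide +kernel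

theorem cyc : Cyc (wM (coord H22.PoinF4.rcxF4).A L) (v H22.PoinF4.rcxF4 b) P c := by
  rw [v_b]
  exact cyc_of _ L bt P c (by decide) (by decide +kernel) (by decide +kernel) (by decide +kernel)

theorem bound : ∀ (r : Fin Cfsg.Lie.chevF4.nroots) (i : Fin Cfsg.Lie.chevF4.rank), |ac P (v H22.PoinF4.rcxF4 r) i| ≤ 2 := by
  decide +kernel

/-- intermediate vectors, exceptional root 0 -/
def bt2_0 (s : ℕ) (j : Fin Cfsg.Lie.chevF4.rank) : ℤ :=
  (((([30022, 25926, 25926, 25926, 25926, 25926, 25926, 30022, 30022, 30022, 30278, 30310, 30566, 34662, 34662, 34664, 34664, 34696, 35208, 39304, 39336, 39338, 39594, 39626, 39882] : List ℕ).getD s 0) >>> (4 * (j : ℕ)) % 16 : ℕ) : ℤ) - 8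

theorem bt2_0_zero : v H22.PoinF4.rcxF4 (1 : Fin 48) = bt2_0 0 := by
  funext j
  revert j
  decide +kernel

theorem ex2_0 : ∃ s, ∀ s', v H22.PoinF4.rcxF4 s' ≠
    ∑ i, ac P (v H22.PoinF4.rcxF4 s) i • ((wM (coord H22.PoinF4.rcxF4).A L)^[(i : ℕ)] (v H22.PoinF4.rcxF4 (1 : Fin 48))) := by
  have h := wM_iterate (coord H22.PoinF4.rcxF4).A L bt2_0 Cfsg.Lie.chevF4.rank (by decide +kernel)
  have h2 : ∀ i : Fin Cfsg.Lie.chevF4.rank, (wM (coord H22.PoinF4.rcxF4).A L)^[(i : ℕ)]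
      (v H22.PoinF4.rcxF4 (1 : Fin 48)) = bt2_0 (i * L.length) := fun i => by
    rw [bt2_0_zero]; exact h i i.2.le
  refine ⟨(0 : Fin 48), ?_⟩
  simp only [h2]
  intro s' hs
  have h3 : ∀ s' : Fin Cfsg.Lie.chevF4.nroots, ¬ ∀ j : Fin Cfsg.Lie.chevF4.rank, v H22.PoinF4.rcxF4 s' j =
      ∑ i : Fin Cfsg.Lie.chevF4.rank, ac P (v H22.PoinF4.rcxF4 (0 : Fin 48)) i *
        bt2_0 (i * L.length) j := by decide +kernel
  refine h3 s' fun j => ?_
  rw [hs, Finset.sum_apply]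
  rfl

/-- intermediate vectors, exceptional root 1 -/
def bt2_1 (s : ℕ) (j : Fin Cfsg.Lie.chevF4.rank) : ℤ :=
  (((([30856, 39048, 39048, 39048, 39304, 39336, 39592, 39592, 39592, 39594, 39338, 39338, 39594, 39594, 39626, 39626, 39882, 39882, 39626, 39626, 39594, 39592, 39336, 39304, 39048] : List ℕ).getD s 0) >>> (4 * (j : ℕ)) % 16 : ℕ) : ℤ) - 8

theorem bt2_1_zero : v H22.PoinF4.rcxF4 (23 : Fin 48) = bt2_1 0 := by
  funext j
  revert j
  decide +kernel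

theorem ex2_1 : ∃ s, ∀ s', v H22.PoinF4.rcxF4 s' ≠
    ∑ i, ac P (v H22.PoinF4.rcxF4 s) i • ((wM (coord H22.PoinF4.rcxF4).A L)^[(i : ℕ)] (v H22.PoinF4.rcxF4 (23 : Fin 48))) := by
  have h := wM_iterate (coord H22.PoinF4.rcxF4).A L bt2_1 Cfsg.Lie.chevF4.rank (by decide +kernel)
  have h2 : ∀ i : Fin Cfsg.Lie.chevF4.rank, (wM (coord H22.PoinF4.rcxF4).A L)^[(i : ℕ)]
      (v H22.PoinF4.rcxF4 (23 : Fin 48)) = bt2_1 (i * L.length) := fun i => by
    rw [bt2_1_zero]; exact h i i.2.le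
  refine ⟨(0 : Fin 48), ?_⟩
  simp only [h2]
  intro s' hs
  have h3 : ∀ s' : Fin Cfsg.Lie.chevF4.nroots, ¬ ∀ j : Fin Cfsg.Lie.chevF4.rank, v H22.PoinF4.rcxF4 s' j =
      ∑ i : Fin Cfsg.Lie.chevF4.rank, ac P (v H22.PoinF4.rcxF4 (0 : Fin 48)) i *
        bt2_1 (i * L.length) j := by decide +kernel
  refine h3 s' fun j => ?_
  rw [hs, Finset.sum_apply]
  rfl

theorem div2 : Div H22.PoinF4.rcxF4 L P b (fv c (((2 : ℕ) : ℤ))) ((2 : ℕ) : ℤ) := by
  refine ⟨by decide +kernel, fun r hr h => ?_⟩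
  have h1 : ∀ r : Fin Cfsg.Lie.chevF4.nroots, r ≠ b → fv c (((2 : ℕ) : ℤ)) ∣
      gv P (((2 : ℕ) : ℤ)) (v H22.PoinF4.rcxF4 r) - 1 → (r : ℕ) = 1 ∨ (r : ℕ) = 23 := by decide +kernel
  rcases h1 r hr h with h2 | h2
  · obtain rfl : r = (1 : Fin 48) := Fin.ext h2
    exact ex2_0
  · obtain rfl : r = (23 : Fin 48) := Fin.ext h2
    exact ex2_1

theorem div3 : Div H22.PoinF4.rcxF4 L P b (fv c (((3 : ℕ) : ℤ))) ((3 : ℕ) : ℤ) := by
  refine ⟨by decide +kernel, fun r hr h => absurd h ?_⟩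
  revert r
  decide +kernel

end H22.TorF4
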