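import Cfsg.Agent.Lib.H22.TorusFix
import Cfsg.Agent.Lib.H22.PoinG2

/-!
Certificate for a self-centralising cyclic torus, type G2.
-/

set_option autoImplicit false

namespace H22.TorG2

open H22.TorusLat H22.TorusCore H22.TorusFix H22.RCComb

/-- the word -/
def L : List (Fin Cfsg.Lie.chevG2.rank) := ([0, 1, 0, 1] : List (Fin 2))

/-- intermediate vectors -/
def bt (s : ℕ) (j : Fin Cfsg.Lie.chevG2.rank) : ℤ :=
  (((([137, 153, 154, 154, 153, 137, 135, 119, 118] : List ℕ).getD s 0) >>> (4 * (j : ℕ)) % 16 : ℕ) : ℤ) - 8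

/-- inverse base change -/
def P (i j : Fin Cfsg.Lie.chevG2.rank) : ℤ := (([[1, -1], [0, 1]] : List (List ℤ)).getD i []).getD j 0

/-- characteristic polynomial -/
def c (i : Fin Cfsg.Lie.chevG2.rank) : ℤ := (([1, 1] : List ℤ)).getD i 0

/-- the cyclic vector -/
def b : Fin Cfsg.Lie.chevG2.nroots := (7 : Fin 12)

theorem v_b : v H22.PoinG2.rcxG2 b = bt 0 := by
  funext j
  revert j
  decide +kernel

theorem cyc : Cyc (wM (coord H22.PoinG2.rcxG2).A L) (v H22.PoinG2.rcxG2 b) P c := by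
  rw [v_b]
  exact cyc_of _ L bt P c (by decide) (by decide +kernel) (by decide +kernel) (by decide +kernel)

theorem bound : ∀ (r : Fin Cfsg.Lie.chevG2.nroots) (i : Fin Cfsg.Lie.chevG2.rank), |ac P (v H22.PoinG2.rcxG2 r) i| ≤ 2 := by
  decide +kernel

theorem div3 : Div H22.PoinG2.rcxG2 L P b (fv c (((3 : ℕ) : ℤ))) ((3 : ℕ) : ℤ) := by
  refine ⟨by decide +kernel, fun r hr h => absurd h ?_⟩
  revert r
  decide +kernel

end H22.TorG2
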