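import Cfsg.Agent.Lib.H22.TorG2
import Cfsg.Agent.Lib.H22.TorF4
import Cfsg.Agent.Lib.H22.TorE8
import Cfsg.Agent.Lib.H22.StThm

/-!
# Self-centralising cyclic tori of G₂(q), F₄(q), E₈(q)
-/

set_option autoImplicit false

namespace H22.TorSC

open H22.TorusLat H22.TorusCore H22.TorusFix H22.RCComb

theorem s2371 {F : Type*} [Field F] [Fintype F] (q : ℕ) (hF : Fintype.card F = q) (hq : 3 ≤ q) :
    ∃ H : Subgroup ↥(Cfsg.Lie.chevG2.group F), IsCyclic ↥H ∧ Nat.card ↥H = q ^ 2 + q + 1 ∧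
      Subgroup.centralizer (H : Set ↥(Cfsg.Lie.chevG2.group F)) = H := by
  have hfv : fv H22.TorG2.c (q : ℤ) = ((q ^ 2 + q + 1 : ℕ) : ℤ) := by
    have h : fv H22.TorG2.c (q : ℤ) = (q : ℤ) ^ 2 + ∑ i : Fin 2, H22.TorG2.c i * (q : ℤ) ^ (i : ℕ) := rfl
    rw [h, Fin.sum_univ_two]
    have h0 : H22.TorG2.c (0 : Fin 2) = 1 := rfl
    have h1 : H22.TorG2.c (1 : Fin 2) = 1 := rfl
    rw [h0, h1]
    push_cast
    simp
    ring
  refine main_sc (X := H22.PoinG2.rcxG2) q hF (by simp) H22.ChevLex.lexG2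
    H22.St.ker_chi_G2 (fun k i => H22.ChevTorusCard.BG2 i k) (by decide +kernel)
    H22.TorG2.cyc (Or.inl rfl) (q ^ 2 + q + 1) hfv ?_
  by_cases h3 : q = 3
  · subst h3; exact H22.TorG2.div3
  · refine div_of_large H22.TorG2.cyc (M := 2) (by norm_num) H22.TorG2.bound (by omega) ?_
    rw [hfv]
    push_cast
    change (q : ℤ) ^ 2 ≤ _
    have : (0 : ℤ) ≤ q := by positivity
    linarith

theorem s2372 {F : Type*} [Field F] [Fintype F] (q : ℕ) (hF : Fintype.card F = q) :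
    ∃ H : Subgroup ↥(Cfsg.Lie.chevF4.group F), IsCyclic ↥H ∧ Nat.card ↥H = q ^ 4 + 1 ∧
      Subgroup.centralizer (H : Set ↥(Cfsg.Lie.chevF4.group F)) = H := by
  have hq2 : 2 ≤ q := by rw [← hF]; exact Fintype.one_lt_card
  have hfv : fv H22.TorF4.c (q : ℤ) = ((q ^ 4 + 1 : ℕ) : ℤ) := by
    have h : fv H22.TorF4.c (q : ℤ) = (q : ℤ) ^ 4 + ∑ i : Fin 4, H22.TorF4.c i * (q : ℤ) ^ (i : ℕ) := rfl
    rw [h, Fin.sum_univ_four]
    have h0 : H22.TorF4.c (0 : Fin 4) = 1 := rfl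
    have h1 : H22.TorF4.c (1 : Fin 4) = 0 := rfl
    have h2 : H22.TorF4.c (2 : Fin 4) = 0 := rfl
    have h3 : H22.TorF4.c (3 : Fin 4) = 0 := rfl
    rw [h0, h1, h2, h3]
    push_cast
    simp
  refine main_sc (X := H22.PoinF4.rcxF4) q hF (by simp) H22.ChevLex.lexF4
    H22.St.ker_chi_F4 (fun k i => H22.ChevTorusCard.BF4 i k) (by decide +kernel)
    H22.TorF4.cyc (Or.inl rfl) (q ^ 4 + 1) hfv ?_
  by_cases h2 : q = 2
  · subst h2; exact H22.TorF4.div2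
  by_cases h3 : q = 3
  · subst h3; exact H22.TorF4.div3
  · refine div_of_large H22.TorF4.cyc (M := 2) (by norm_num) H22.TorF4.bound (by omega) ?_
    rw [hfv]
    push_cast
    change (q : ℤ) ^ 4 ≤ _
    linarith

theorem s2375 {F : Type*} [Field F] [Fintype F] (q : ℕ) (hF : Fintype.card F = q) :
    ∃ H : Subgroup ↥(Cfsg.Lie.chevE8.group F), IsCyclic ↥H ∧
      Nat.card ↥H = q ^ 8 + q ^ 7 - q ^ 5 - q ^ 4 - q ^ 3 + q + 1 ∧
      Subgroup.centralizer (H : Set ↥(Cfsg.Lie.chevE8.group F)) = H := by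
  have hq2 : 2 ≤ q := by rw [← hF]; exact Fintype.one_lt_card
  have e5 : q ^ 5 ≤ q ^ 7 := Nat.pow_le_pow_right (by omega) (by norm_num)
  have e4 : q ^ 4 + q ^ 3 ≤ q ^ 8 := by
    have h1 : q ^ 4 ≤ q ^ 7 := Nat.pow_le_pow_right (by omega) (by norm_num)
    have h2 : q ^ 3 ≤ q ^ 7 := Nat.pow_le_pow_right (by omega) (by norm_num)
    have h3 : q ^ 7 * 2 ≤ q ^ 7 * q := Nat.mul_le_mul_left _ hq2
    have h4 : q ^ 8 = q ^ 7 * q := by ring
    omega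
  have hfv : fv H22.TorE8.c (q : ℤ) =
      ((q ^ 8 + q ^ 7 - q ^ 5 - q ^ 4 - q ^ 3 + q + 1 : ℕ) : ℤ) := by
    have h : fv H22.TorE8.c (q : ℤ) = (q : ℤ) ^ 8 + ∑ i : Fin 8, H22.TorE8.c i * (q : ℤ) ^ (i : ℕ) := rfl
    rw [h, Fin.sum_univ_eight]
    have h0 : H22.TorE8.c (0 : Fin 8) = 1 := rfl
    have h1 : H22.TorE8.c (1 : Fin 8) = 1 := rfl
    have h2 : H22.TorE8.c (2 : Fin 8) = 0 := rfl
    have h3 : H22.TorE8.c (3 : Fin 8) = -1 := rfl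
    have h4 : H22.TorE8.c (4 : Fin 8) = -1 := rfl
    have h5 : H22.TorE8.c (5 : Fin 8) = -1 := rfl
    have h6 : H22.TorE8.c (6 : Fin 8) = 0 := rfl
    have h7 : H22.TorE8.c (7 : Fin 8) = 1 := rfl
    rw [h0, h1, h2, h3, h4, h5, h6, h7]
    have hc : ((q ^ 8 + q ^ 7 - q ^ 5 - q ^ 4 - q ^ 3 + q + 1 : ℕ) : ℤ) =
        (q : ℤ) ^ 8 + (q : ℤ) ^ 7 - (q : ℤ) ^ 5 - (q : ℤ) ^ 4 - (q : ℤ) ^ 3 + q + 1 := by
      rw [Nat.cast_add, Nat.cast_add, Nat.cast_sub (by omega), Nat.cast_sub (by omega),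
        Nat.cast_sub (by omega)]
      push_cast
      ring
    rw [hc]
    simp only [Fin.isValue, Fin.val_zero, Fin.val_one, pow_zero, pow_one]
    have v2 : ((2 : Fin 8) : ℕ) = 2 := rfl
    have v3 : ((3 : Fin 8) : ℕ) = 3 := rfl
    have v4 : ((4 : Fin 8) : ℕ) = 4 := rfl
    have v5 : ((5 : Fin 8) : ℕ) = 5 := rfl
    have v6 : ((6 : Fin 8) : ℕ) = 6 := rfl
    have v7 : ((7 : Fin 8) : ℕ) = 7 := rfl
    rw [v2, v3, v4, v5, v6, v7]
    ring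
  refine main_sc (X := H22.PoinE8.rcxE8) q hF (by simp) H22.ChevLex.lexE8
    H22.St.ker_chi_E8 (fun k i => H22.ChevTorusCard.BE8 i k) (by decide +kernel)
    H22.TorE8.cyc (Or.inl rfl) _ hfv ?_
  by_cases h2 : q = 2
  · subst h2; exact H22.TorE8.div2
  by_cases h3 : q = 3
  · subst h3; exact H22.TorE8.div3
  · refine div_of_large H22.TorE8.cyc (M := 2) (by norm_num) H22.TorE8.bound (by omega) ?_
    rw [hfv]
    change (q : ℤ) ^ 8 ≤ _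
    have h4 : q ^ 8 ≤ q ^ 8 + q ^ 7 - q ^ 5 - q ^ 4 - q ^ 3 + q + 1 := by
      have g1 : q ^ 5 * 4 ≤ q ^ 5 * (q * q) := Nat.mul_le_mul_left _ (by nlinarith)
      have g2 : q ^ 7 = q ^ 5 * (q * q) := by ring
      have g3 : q ^ 4 ≤ q ^ 5 := Nat.pow_le_pow_right (by omega) (by norm_num)
      have g4 : q ^ 3 ≤ q ^ 5 := Nat.pow_le_pow_right (by omega) (by norm_num)
      omega
    exact_mod_cast h4

end H22.TorSC
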