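import Cfsg.Agent.Lib.H22.TorD4

/-!
# Self-centralising cyclic subgroups of the fixed points of a maximal torus
-/

set_option autoImplicit false
set_option linter.style.haveILetI false
set_option linter.unusedSectionVars false
set_option linter.unusedSimpArgs false

namespace H22.TorSub

open H22.RGD H22.Coord H22.RCCheck H22.RCComb H22.ChevTri H22.ChevRel H22.ChevSys H22.ChevMain
open H22.ChevStd H22.ChevUni H22.ChevTorus H22.Lang H22.LangChev H22.TorusLat H22.TorusCore
open H22.TorusFix H22.TorTw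
open Cfsg.Lie (ChevalleyDatum)
open scoped MatrixGroups Matrix

variable {D : ChevalleyDatum} {K : Type*} [Field K] {R : Rel D K} {X : RCX D}

/-- in a cyclic group a subgroup of order `n` consists of all `a` with `a ^ n = 1` -/
theorem mem_of_pow {G : Type*} [CommGroup G] (A A' : Subgroup G) [Finite A] [IsCyclic A]
    (hle : A' ≤ A) {n : ℕ} (hn : Nat.card A' = n) (hn0 : 0 < n) {a : G} (ha : a ∈ A)
    (h : a ^ n = 1) : a ∈ A' := by
  classical
  haveI := Fintype.ofFinite A
  let B : Subgroup A := A'.subgroupOf A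
  have hB : Nat.card B = n := by
    rw [← hn]
    exact Nat.card_congr (Subgroup.subgroupOfEquivOfLe hle).toEquiv
  haveI : Finite B := inferInstance
  haveI := Fintype.ofFinite B
  have h1 := IsCyclic.card_pow_eq_one_le (α := A) hn0
  have h2 : (Finset.univ.image (Subtype.val : B → A)) ⊆ Finset.univ.filter (fun a : A => a ^ n = 1) := by
    intro x hx
    obtain ⟨y, _, rfl⟩ := Finset.mem_image.1 hx
    simp only [Finset.mem_filter, Finset.mem_univ, true_and]
    have := pow_card_eq_one' (x := y)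
    rw [hB] at this
    exact congrArg Subtype.val this
  have h3 : (Finset.univ.image (Subtype.val : B → A)).card = n := by
    rw [Finset.card_image_of_injective _ Subtype.val_injective, Finset.card_univ,
      ← Nat.card_eq_fintype_card, hB]
  have h4 := Finset.eq_of_subset_of_card_le h2 (by rw [h3]; exact h1)
  have h5 : (⟨a, ha⟩ : A) ∈ Finset.univ.filter (fun a : A => a ^ n = 1) := by
    simp only [Finset.mem_filter, Finset.mem_univ, true_and]
    exact Subtype.ext h
  rw [← h4] at h5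
  obtain ⟨y, _, hy⟩ := Finset.mem_image.1 h5
  have h6 : y.1 ∈ A'.subgroupOf A := y.2
  rw [hy] at h6
  exact h6

/-- **Self-centralising cyclic tori**, version for a subgroup of the fixed points. -/
theorem cyclic_torus_sub [IsAlgClosed K] (Z : Lex X.rc) {τ : Equiv.Perm (Fin D.nroots)} {q : ℕ}
    {σ : GL D.Idx K →* GL D.Idx K} (S : Stein R X τ q σ)
    (hT : ∀ z : Fin D.rank → Kˣ, Tz X z ∈ Hs R)
    {w : Equiv.Perm (Fin D.nroots)}
    {n x : GL D.Idx K} (hn : (chevSys R X).Rep n w) (hx : x ∈ D.group K) (hxn : x⁻¹ * σ x = n)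
    {M : (Fin D.rank → ℤ) →+ (Fin D.rank → ℤ)} (hM : ∀ r, v X (w (τ r)) = M (v X r))
    {b : Fin D.nroots} {P : Fin D.rank → Fin D.rank → ℤ} {c : Fin D.rank → ℤ}
    (C : Cyc M (v X b) P c) {f f' : ℕ} (hf : fv c q = f) (hfK : (f : K) ≠ 0) (hff : f' ∣ f)
    (A' : Subgroup (Fin D.rank → Kˣ)) (hA' : A' ≤ tw Kˣ M q) (hcard : Nat.card A' = f')
    {Gf : Type*} [Group Gf] (ι : Gf →* GL D.Idx K) (hι : Function.Injective ι)
    (hιG : ∀ y, ι y ∈ D.group K ∧ σ (ι y) = ι y)
    (hlift : ∀ z ∈ A', ∃ y, ι y = x * Tz X z * x⁻¹)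
    (hback : ∀ y z, z ∈ tw Kˣ M q → ι y = x * Tz X z * x⁻¹ → z ∈ A')
    (h12 : DivM X M P b f' q) :
    ∃ H : Subgroup Gf, IsCyclic H ∧ Nat.card H = f' ∧
      Subgroup.centralizer (H : Set Gf) = H := by
  classical
  obtain ⟨h1, h2⟩ := h12
  haveI hne : NeZero (f : K) := ⟨hfK⟩
  haveI hne' : NeZero f := ⟨fun h => hfK (by rw [h]; simp)⟩
  haveI : HasEnoughRootsOfUnity K f := inferInstance
  have hf'0 : 0 < f' := Nat.pos_of_dvd_of_pos hff (Nat.pos_of_ne_zero (NeZero.ne f))
  have hσx : σ x = x * n := by rw [← hxn]; group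
  let A := tw Kˣ M q
  let φ : (Fin D.rank → Kˣ) →* GL D.Idx K := (MulAut.conj x).toMonoidHom.comp (Tz X)
  have hφ : ∀ z, φ z = x * Tz X z * x⁻¹ := fun z => rfl
  have hφinj : Function.Injective φ := by
    intro a b h
    exact Tz_inj X ((MulAut.conj x).injective h)
  have hker : (zpowGroupHom (α := Kˣ) (fv c q)).ker = rootsOfUnity f K := by
    ext ζ
    rw [MonoidHom.mem_ker, mem_rootsOfUnity, hf]
    simp
  let e0 : A ≃* rootsOfUnity f K := (C.equiv (T := Kˣ) q).trans (MulEquiv.subgroupCongr hker)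
  haveI hAcyc : IsCyclic A := isCyclic_of_injective e0.toMonoidHom e0.injective
  haveI hAfin : Finite A := Finite.of_equiv _ e0.symm.toEquiv
  let H : Subgroup Gf := (A'.map φ).comap ι
  have hHmap : H.map ι = A'.map φ := by
    apply le_antisymm
    · exact Subgroup.map_comap_le _ _
    · rintro _ ⟨z, hz, rfl⟩
      obtain ⟨y, hy⟩ := hlift z hz
      exact ⟨y, Subgroup.mem_comap.2 (by rw [hy]; exact ⟨z, hz, rfl⟩), hy⟩
  let e1 : H ≃* A' :=
    (H.equivMapOfInjective ι hι).trans ((MulEquiv.subgroupCongr hHmap).trans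
      (A'.equivMapOfInjective φ hφinj).symm)
  have hcyc : IsCyclic H := by
    have hi : Function.Injective ((Subgroup.inclusion hA').comp e1.toMonoidHom) :=
      (Subgroup.inclusion_injective hA').comp e1.injective
    exact isCyclic_of_injective _ hi
  refine ⟨H, hcyc, ?_, ?_⟩
  · rw [Nat.card_congr e1.toEquiv, hcard]
  apply le_antisymm
  · intro y hy
    rw [Subgroup.mem_centralizer_iff] at hy
    set g := x⁻¹ * ι y * x with hg
    have hgG : g ∈ D.group K := mul_mem (mul_mem (inv_mem hx) (hιG y).1) hx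
    have hgc : ∀ z ∈ (A' : Set (Fin D.rank → Kˣ)), Tz X z * g * (Tz X z)⁻¹ = g := by
      intro z hz
      obtain ⟨y', hy'⟩ := hlift z hz
      have h3 := hy y' (Subgroup.mem_comap.2 (by rw [hy']; exact ⟨z, hz, rfl⟩))
      have h4 := congrArg ι h3
      rw [map_mul, map_mul, hy'] at h4
      have h5 : Tz X z * g = g * Tz X z := by
        rw [hg]
        calc Tz X z * (x⁻¹ * ι y * x) = x⁻¹ * (x * Tz X z * x⁻¹ * ι y) * x := by group
          _ = x⁻¹ * (ι y * (x * Tz X z * x⁻¹)) * x := by rw [h4]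
          _ = _ := by group
      rw [h5]; group
    obtain ⟨ζ, hζ⟩ := HasEnoughRootsOfUnity.exists_primitiveRoot K f
    obtain ⟨ζ, rfl⟩ : ∃ u : Kˣ, (u : K) = ζ := ⟨hζ.isUnit (NeZero.ne f) |>.unit, rfl⟩
    have hζ1 : IsPrimitiveRoot ζ f := IsPrimitiveRoot.coe_units_iff.1 hζ
    obtain ⟨d, hd⟩ := hff
    have hζ' : IsPrimitiveRoot (ζ ^ d) f' :=
      hζ1.pow (Nat.pos_of_ne_zero (NeZero.ne f)) (by rw [hd, mul_comm])
    set η := ζ ^ d with hη
    have hζtw : mkz P q η ∈ A := C.mkz_mem (by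
      rw [hf, zpow_natCast, hd, pow_mul, hζ'.pow_eq_one, one_pow])
    have hζA : mkz P q η ∈ A' := by
      refine mem_of_pow A A' hA' hcard hf'0 hζtw ?_
      funext j
      change (η ^ gv P q (Pi.single j 1)) ^ f' = 1
      rw [← zpow_natCast, ← zpow_mul, mul_comm, zpow_mul, zpow_natCast, hζ'.pow_eq_one, one_zpow]
    have hζr : ∀ r, ∃ z ∈ (A' : Set (Fin D.rank → Kˣ)), E z (v X r) ≠ 1 := by
      intro r
      refine ⟨_, hζA, ?_⟩
      rw [E_mkz]
      intro h
      exact h1 r ((hζ'.zpow_eq_one_iff_dvd _).1 h)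
    obtain ⟨u, hu, huz⟩ := cent R Z (fun z _ => hT z) hζr hgG hgc
    have hgσ : n * σ g * n⁻¹ = g := by
      rw [hg, map_mul, map_mul, map_inv, (hιG y).2, hσx]; group
    have hcomm : w * (τ * u * τ⁻¹) * w⁻¹ = u := by
      have h3 := (hn.mul (S.rep _ _ hu)).mul hn.inv
      rw [hgσ] at h3
      exact h3.unique hu
    have hcomm' : ∀ r, u (w (τ r)) = w (τ (u r)) := by
      intro r
      have h3 := congrArg (fun p : Equiv.Perm (Fin D.nroots) => p (w (τ r))) hcomm
      simp only [Equiv.Perm.mul_apply] at h3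
      rw [← h3]
      congr 2
      simp
    have hit : ∀ i : ℕ, ∃ r, M^[i] (v X b) = v X r ∧ M^[i] (v X (u b)) = v X (u r) := by
      intro i
      induction i with
      | zero => exact ⟨b, rfl, rfl⟩
      | succ i ih =>
        obtain ⟨r, h3, h4⟩ := ih
        refine ⟨w (τ r), ?_, ?_⟩
        · rw [Function.iterate_succ_apply', h3, hM]
        · rw [Function.iterate_succ_apply', h4, hcomm', hM]
    have hact : ∀ s, v X (u s) = ∑ i, ac P (v X s) i • (M^[(i : ℕ)] (v X (u b))) := by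
      intro s
      rw [lin_v X hu.2.1]
      conv_lhs => rw [C.decomp (v X s), map_sum]
      refine Finset.sum_congr rfl fun i _ => ?_
      rw [map_zsmul]
      obtain ⟨r, h5, h6⟩ := hit i
      rw [h5, ← lin_v X hu.2.1, h6]
    have hub : u b = b := by
      by_contra hne
      have h3 := huz _ hζA b
      rw [E_mkz, E_mkz, C.gv_b, zpow_one] at h3
      have h4 : (f' : ℤ) ∣ gv P q (v X (u b)) - 1 := by
        rw [← hζ'.zpow_eq_one_iff_dvd, zpow_sub, h3, zpow_one, mul_inv_cancel]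
      obtain ⟨s, hs⟩ := h2 (u b) hne h4
      exact hs (u s) (hact s)
    have hu1 : u = 1 := by
      ext r
      have h3 : v X (u r) = v X r := by
        rw [hact, hub, ← C.decomp]
      rw [(coord X).co_inj h3]
      rfl
    rw [hu1] at hu
    have hgH : g ∈ Hs R := by
      rw [← diagonalSubgroup_eq R X]; exact (chevSys R X).mem_H_of_rep_one hu
    obtain ⟨z, hz⟩ := Hs_le_Tz R X hgH
    have hzA : z ∈ A := by
      rw [hz] at hgσ
      exact (S.fix_iff hT hn hM z).1 hgσ
    have hyz : ι y = x * Tz X z * x⁻¹ := by rw [← hz, hg]; group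
    exact Subgroup.mem_comap.2 ⟨z, hback y z hzA hyz, hyz.symm⟩
  · intro y hy
    rw [Subgroup.mem_centralizer_iff]
    intro y' hy'
    haveI := hcyc
    have : (⟨y', hy'⟩ : H) * ⟨y, hy⟩ = ⟨y, hy⟩ * ⟨y', hy'⟩ := by
      letI := IsCyclic.commGroup (α := H)
      exact mul_comm _ _
    exact congrArg Subtype.val this

end H22.TorSub
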