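import Cfsg.Agent.Lib.H22.TwStein

/-!
# Certificates for twisted tori; descent to finite subfields
-/

set_option autoImplicit false
set_option linter.style.haveILetI false
set_option linter.unusedSectionVars false
set_option linter.unusedSimpArgs false

namespace H22.TorTw

open H22.RGD H22.Coord H22.RCCheck H22.RCComb H22.ChevTri H22.ChevRel H22.ChevSys H22.ChevMain
open H22.ChevStd H22.ChevUni H22.ChevTorus H22.Lang H22.LangChev H22.TorusLat H22.TorusCore
open H22.TorusFix H22.TwStein
open Cfsg.Lie (ChevalleyDatum)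
open scoped MatrixGroups Matrix

section Cert

variable {l : ℕ}

theorem iter_of (M : (Fin l → ℤ) →+ (Fin l → ℤ)) (bt : ℕ → Fin l → ℤ) (N : ℕ)
    (h : ∀ i < N, ∀ j, M (bt i) j = bt (i + 1) j) : ∀ i ≤ N, M^[i] (bt 0) = bt i := by
  intro i
  induction i with
  | zero => intro _; rfl
  | succ i ih =>
    intro hi
    rw [Function.iterate_succ_apply', ih (by omega)]
    funext j
    exact h i (by omega) j

/-- assembling a certificate -/
theorem cyc_gen (M : (Fin l → ℤ) →+ (Fin l → ℤ)) (bt : ℕ → Fin l → ℤ)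
    (P : Fin l → Fin l → ℤ) (c : Fin l → ℤ) (hl : 0 < l)
    (h : ∀ i < l, ∀ j, M (bt i) j = bt (i + 1) j)
    (hinv : ∀ j k, ∑ i : Fin l, P i j * bt i k = if j = k then 1 else 0)
    (hrel : ∀ k, bt l k = - ∑ i : Fin l, c i * bt i k) : Cyc M (bt 0) P c where
  pos := hl
  inv := by
    intro j k
    rw [← hinv j k]
    refine Finset.sum_congr rfl fun i _ => ?_
    rw [iter_of M bt l h i i.2.le]
  rel := by
    intro k
    rw [iter_of M bt l h l le_rfl, hrel]
    congr 1
    refine Finset.sum_congr rfl fun i _ => ?_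
    rw [iter_of M bt l h i i.2.le]

variable {D : ChevalleyDatum} {X : RCX D}

/-- the two divisibility conditions -/
def DivM (X : RCX D) (M : (Fin D.rank → ℤ) →+ (Fin D.rank → ℤ)) (P : Fin D.rank → Fin D.rank → ℤ)
    (b : Fin D.nroots) (f q : ℤ) : Prop :=
  (∀ r, ¬ f ∣ gv P q (v X r)) ∧
  (∀ r, r ≠ b → f ∣ gv P q (v X r) - 1 →
      ∃ s, ∀ s', v X s' ≠ ∑ i, ac P (v X s) i • (M^[(i : ℕ)] (v X r)))

theorem divM_of_large {M' : (Fin D.rank → ℤ) →+ (Fin D.rank → ℤ)} {P : Fin D.rank → Fin D.rank → ℤ}
    {c : Fin D.rank → ℤ} {b : Fin D.nroots} (C : Cyc M' (v X b) P c)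
    {M q : ℤ} (hM : 0 ≤ M) (ha : ∀ r i, |ac P (v X r) i| ≤ M) (hq : M + 2 ≤ q)
    (hf : q ^ D.rank ≤ fv c q) : DivM X M' P b (fv c q) q := by
  constructor
  · intro r
    refine not_dvd_of_large hM (by omega) (ha r) ?_ hf
    intro h0
    obtain ⟨j, hj⟩ := (coord X).ne_zero r
    apply hj
    have h1 := congrFun (C.decomp (v X r)) j
    rw [Finset.sum_apply] at h1
    change (coord X).co r j = _ at h1
    rw [h1]
    refine Finset.sum_eq_zero fun i _ => ?_
    have h2 : ac P (v X r) i = 0 := congrFun h0 i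
    rw [h2]; simp
  · intro r hr h
    exfalso
    have h1 : gv P q (v X r) - 1 = ∑ i, (ac P (v X r) i - ac P (v X b) i) * q ^ (i : ℕ) := by
      rw [← C.gv_b q]
      unfold gv
      rw [← Finset.sum_sub_distrib]
      exact Finset.sum_congr rfl fun i _ => by ring
    rw [h1] at h
    refine not_dvd_of_large (M := M + 1) (by omega) (by omega) ?_ ?_ hf h
    · intro i
      have h2 : ac P (v X b) i = if (⟨0, C.pos⟩ : Fin D.rank) = i then 1 else 0 :=
        C.ac_iterate ⟨0, C.pos⟩ i
      have h3 := ha r i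
      rw [abs_le] at h3 ⊢
      rw [h2]
      split_ifs <;> omega
    · intro h0
      apply hr
      apply (coord X).co_inj
      have h4 : ∀ i, ac P (v X r) i = ac P (v X b) i := fun i => by
        have := congrFun h0 i
        simp only [Pi.zero_apply] at this
        omega
      change v X r = v X b
      exact (C.decomp (v X r)).trans ((Finset.sum_congr rfl fun i _ => by rw [h4]).trans
        (C.decomp (v X b)).symm)

end Cert

/-! ### descent to finite subfields -/

section Desc

variable {D : ChevalleyDatum} {F : Type*} [Field F] [Finite F] {K : Type*} [Field K] [Algebra F K]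
    [Algebra.IsAlgebraic F K]

theorem fin_of_fd (K' : IntermediateField F K) [FiniteDimensional F K'] : Finite K' :=
  Module.finite_of_finite F

/-- every element of a Chevalley group over an algebraic extension of a finite field is defined
over a finite subfield -/
theorem exists_finite (hD : D ∈ [Cfsg.Lie.chevG2, Cfsg.Lie.chevB2, Cfsg.Lie.chevD4,
      Cfsg.Lie.chevF4, Cfsg.Lie.chevE6, Cfsg.Lie.chevE7, Cfsg.Lie.chevE8]) {g : GL D.Idx K}
    (hg : g ∈ D.group K) : ∃ K' : IntermediateField F K, Finite K' ∧ ∃ g' ∈ D.group K',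
      Matrix.GeneralLinearGroup.map (algebraMap K' K) g' = g := by
  have key : ∃ K' : IntermediateField F K, FiniteDimensional F K' ∧ ∃ g' ∈ D.group K',
      Matrix.GeneralLinearGroup.map (algebraMap K' K) g' = g := by
    refine group_ind (p := fun g => ∃ K' : IntermediateField F K, FiniteDimensional F K' ∧
      ∃ g' ∈ D.group K', Matrix.GeneralLinearGroup.map (algebraMap K' K) g' = g) (H22.ChevAll.rel D hD K) ?_ ?_ ?_ ?_ hg
    · intro r t
      refine ⟨IntermediateField.adjoin F {t}, ?_, ?_⟩
      · exact IntermediateField.adjoin.finiteDimensional (Algebra.IsIntegral.isIntegral t)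
      · refine ⟨xg (H22.ChevAll.rel D hD _) r ⟨t, IntermediateField.mem_adjoin_simple_self F t⟩,
          xg_mem_group' _ _ _, ?_⟩
        exact Units.ext (H22.ChevField.x_map _ _ _)
    · exact ⟨⊥, inferInstance, 1, one_mem _, map_one _⟩
    · rintro a b ⟨K1, h1, a', ha', rfl⟩ ⟨K2, h2, b', hb', rfl⟩
      refine ⟨K1 ⊔ K2, inferInstance, ?_⟩
      have hle1 : K1 ≤ K1 ⊔ K2 := le_sup_left
      have hle2 : K2 ≤ K1 ⊔ K2 := le_sup_right
      refine ⟨Matrix.GeneralLinearGroup.map (IntermediateField.inclusion hle1).toRingHom a' *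
        Matrix.GeneralLinearGroup.map (IntermediateField.inclusion hle2).toRingHom b', ?_, ?_⟩
      · exact mul_mem (H22.ChevField.glMap_group _ ha') (H22.ChevField.glMap_group _ hb')
      · rw [map_mul]
        congr 1
    · rintro a ⟨K1, h1, a', ha', rfl⟩
      exact ⟨K1, h1, a'⁻¹, inv_mem ha', map_inv _ _⟩
  obtain ⟨K', h, h'⟩ := key
  exact ⟨K', fin_of_fd K', h'⟩

end Desc

end H22.TorTw
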