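import Cfsg.Agent.Lib.H22.TorSub
import Cfsg.Agent.Lib.H23.CenterE

/-!
# Frobenius maps of universal groups; tori of the groups of adjoint type
-/

set_option autoImplicit false
set_option linter.style.haveILetI false
set_option linter.unusedSectionVars false
set_option linter.unusedSimpArgs false
set_option linter.unusedVariables false

namespace H22.TorUniv

open H22.RGD H22.Coord H22.RCCheck H22.RCComb H22.ChevTri H22.ChevRel H22.ChevSys H22.ChevMain
open H22.ChevStd H22.ChevUni H22.ChevTorus H22.Lang H22.LangChev H22.TorusLat H22.TorusCore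
open H22.TorusFix H22.TorTw H22.TorSub H22.St
open Cfsg.Lie (ChevalleyDatum)
open scoped MatrixGroups Matrix

variable {D : ChevalleyDatum} {K : Type*} [Field K] {R : Rel D K} {X : RCX D} (Z : Lex X.rc)
  (W : StCert D X.rc.half) {Gb : Type*} [Group Gb] (S : StG R Gb)

/-- Frobenius endomorphism of the universal group -/
structure UF (Fb : Gb →* Gb) (φ : K →+* K) : Prop where
  x : ∀ r < D.nroots, ∀ t, Fb (S.xb r t) = S.xb r (φ t)

variable {S} {Fb : Gb →* Gb} {φ : K →+* K} (U : UF S Fb φ)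
include U

theorem UF.θ (g : Gb) : S.θ (Fb g) = Matrix.GeneralLinearGroup.map φ (S.θ g) := by
  have h : g ∈ MonoidHom.eqLocus (S.θ.comp Fb) ((Matrix.GeneralLinearGroup.map φ).comp S.θ) := by
    have h1 : (⊤ : Subgroup Gb) ≤
        MonoidHom.eqLocus (S.θ.comp Fb) ((Matrix.GeneralLinearGroup.map φ).comp S.θ) := by
      rw [← S.gen, Subgroup.closure_le]
      rintro _ ⟨r, t, hr, rfl⟩
      change S.θ (Fb (S.xb r t)) = Matrix.GeneralLinearGroup.map φ (S.θ (S.xb r t))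
      rw [U.x r hr, S.θ_x r hr, S.θ_x r hr]
      exact Units.ext (H22.ChevField.x_map φ r t).symm
    exact h1 (Subgroup.mem_top g)
  exact h

theorem UF.nb (Q : RC D) {r : ℕ} (hr : r < D.nroots) (t : K) : Fb (S.nb r t) = S.nb r (φ t) := by
  rw [S.nb_def, S.nb_def, map_mul, map_mul, U.x r hr, U.x _ (neg_lt Q hr), map_neg, map_inv₀]

theorem UF.hb (Q : RC D) {r : ℕ} (hr : r < D.nroots) (t : K) : Fb (S.hb r t) = S.hb r (φ t) := by
  rw [S.hb_def, S.hb_def, map_mul, U.nb Q hr, U.nb Q hr, map_neg, map_one]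

theorem UF.nw (L : List (Fin D.rank)) : Fb ((S.stSys X Z W).nw L) = (S.stSys X Z W).nw L := by
  unfold Sys.nw
  rw [map_list_prod, List.map_map]
  congr 1
  apply List.map_congr_left
  intro i _
  change Fb (S.nb (D.simple i) 1) = S.nb (D.simple i) 1
  rw [U.nb X.rc (X.rc.simple_lt i i.2), map_one]

theorem UF.psi {q : ℕ} (hφ : ∀ x, φ x = x ^ q) (c : Fin D.rank → Kˣ) :
    Fb (S.psi X Z W c) = S.psi X Z W (c ^ q) := by
  have h2 : c ∈ MonoidHom.eqLocus (Fb.comp (S.psi X Z W)) ((S.psi X Z W).comp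
      (powMonoidHom q)) := by
    apply Subgroup.pi_mem_of_mulSingle_mem
    intro i
    change Fb (S.psi X Z W (Pi.mulSingle i (c i))) = S.psi X Z W ((Pi.mulSingle i (c i)) ^ q)
    rw [← Pi.mulSingle_pow, S.psi_single, S.psi_single, U.hb X.rc (X.rc.simple_lt i i.2), hφ,
      Units.val_pow_eq_pow_val]
  exact h2

include Z W in
theorem UF.Hb_pow {q : ℕ} (hφ : ∀ x, φ x = x ^ q) {h : Gb} (hh : h ∈ S.Hb) : Fb h = h ^ q := by
  rw [← S.psi_range X Z W] at hh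
  obtain ⟨c, rfl⟩ := hh
  rw [U.psi Z W hφ, map_pow]

omit U

include Z W in
theorem Hb_comm {a b : Gb} (ha : a ∈ S.Hb) (hb : b ∈ S.Hb) : a * b = b * a := by
  rw [← S.psi_range X Z W] at ha hb
  obtain ⟨c, rfl⟩ := ha
  obtain ⟨d, rfl⟩ := hb
  rw [← map_mul, ← map_mul, mul_comm]

theorem θ_group (g : Gb) : S.θ g ∈ D.group K := by
  have h1 : (⊤ : Subgroup Gb) ≤ (D.group K).comap S.θ := by
    rw [← S.gen, Subgroup.closure_le]
    rintro _ ⟨r, t, hr, rfl⟩
    change S.θ (S.xb r t) ∈ D.group K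
    rw [S.θ_x r hr]
    exact xg_mem_group' R r t
  exact h1 (Subgroup.mem_top g)

theorem θ_surj {g : GL D.Idx K} (hg : g ∈ D.group K) : ∃ g', S.θ g' = g := by
  refine H22.TwStein.group_ind (p := fun g => ∃ g', S.θ g' = g) R ?_ ?_ ?_ ?_ hg
  · intro r t; exact ⟨S.xb r t, S.θ_x r r.2 t⟩
  · exact ⟨1, map_one _⟩
  · rintro a b ⟨a', rfl⟩ ⟨b', rfl⟩; exact ⟨a' * b', map_mul _ _ _⟩
  · rintro a ⟨a', rfl⟩; exact ⟨a'⁻¹, map_inv _ _⟩

include Z W in
/-- elements of the torus are divisible -/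
theorem Hb_div [IsAlgClosed K] {h : Gb} (hh : h ∈ S.Hb) {m : ℕ} (hm : 0 < m) :
    ∃ k ∈ S.Hb, k ^ m = h := by
  rw [← S.psi_range X Z W] at hh
  obtain ⟨c, rfl⟩ := hh
  have : ∀ i, ∃ y : Kˣ, y ^ m = c i := by
    intro i
    obtain ⟨y, hy⟩ := IsAlgClosed.exists_pow_nat_eq ((c i : Kˣ) : K) hm
    have hy0 : y ≠ 0 := by
      rintro rfl
      rw [zero_pow hm.ne'] at hy
      exact (c i).ne_zero hy.symm
    exact ⟨Units.mk0 y hy0, Units.ext (by simpa using hy)⟩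
  choose y hy using this
  refine ⟨S.psi X Z W y, ?_, ?_⟩
  · rw [← S.psi_range X Z W]; exact ⟨y, rfl⟩
  · rw [← map_pow]
    congr 1
    funext i
    exact hy i

theorem θ_Hb (X : RCX D) {h : Gb} (hh : h ∈ S.Hb) : S.θ h ∈ Hs R := S.map_Hb X.rc ⟨h, hh, rfl⟩

include Z W in
theorem mem_Hb_of_θ {h : Gb} (hh : S.θ h ∈ Hs R) : h ∈ S.Hb := by
  obtain ⟨c, hc⟩ := (Hs_iff (X := X) R).1 hh
  have h1 : S.θ (S.psi X Z W c) = S.θ h := by
    rw [S.θ_psi, hc]
    unfold Tz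
    rw [MonoidHom.comp_apply]
    congr 1
    funext s
    exact chi_eq X c s
  have h2 : (S.psi X Z W c)⁻¹ * h ∈ S.Hb := by
    apply S.ker_le X Z W
    rw [MonoidHom.mem_ker, map_mul, map_inv, h1, inv_mul_cancel]
  have h3 : S.psi X Z W c ∈ S.Hb := by rw [← S.psi_range X Z W]; exact ⟨c, rfl⟩
  have := S.Hb.mul_mem h3 h2
  rwa [mul_inv_cancel_left] at this

section Main

variable [IsAlgClosed K] (U : UF S Fb φ) {q : ℕ} (hφ : ∀ x, φ x = x ^ q) (hq : 2 ≤ q)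
  {n : Gb} {w : Equiv.Perm (Fin D.nroots)} (hn : (S.stSys X Z W).Rep n w) (hFn : Fb n = n)

include U hφ hq hn hFn

/-- the twisted Frobenius map of the torus minus the identity is onto -/
theorem torus_lang {h : Gb} (hh : h ∈ S.Hb) : ∃ k ∈ S.Hb, n * Fb k * n⁻¹ * k⁻¹ = h := by
  have hconj : ∀ k ∈ S.Hb, n * k * n⁻¹ ∈ S.Hb := fun k hk => (S.stSys X Z W).N_conj_H hn.1 hk
  let s : Gb → Gb := fun k => n * Fb k * n⁻¹
  have hs : ∀ k, s k = n * Fb k * n⁻¹ := fun k => rfl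
  have hsH : ∀ k ∈ S.Hb, s k ∈ S.Hb := by
    intro k hk
    rw [hs, U.Hb_pow Z W hφ hk]
    exact hconj _ (S.Hb.pow_mem hk q)
  have hit : ∀ (i : ℕ) (k : Gb), k ∈ S.Hb → s^[i] k = n ^ i * k ^ (q ^ i) * (n ^ i)⁻¹ ∧
      s^[i] k ∈ S.Hb := by
    intro i k hk
    induction i with
    | zero => simp [hk]
    | succ i ih =>
      rw [Function.iterate_succ_apply']
      refine ⟨?_, hsH _ ih.2⟩
      rw [ih.1, hs, map_mul, map_mul, map_inv, map_pow, hFn,
        U.Hb_pow Z W hφ (S.Hb.pow_mem hk _), ← pow_mul, ← pow_succ, pow_succ' n]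
      group
  set N := orderOf w with hN
  have hN0 : 0 < N := orderOf_pos w
  have hrep : ∀ i : ℕ, (S.stSys X Z W).Rep (n ^ i) (w ^ i) := by
    intro i
    induction i with
    | zero => simpa using (S.stSys X Z W).rep_H (S.stSys X Z W).H.one_mem
    | succ i ih => rw [pow_succ, pow_succ]; exact ih.mul hn
  have hnN : n ^ N ∈ S.Hb := by
    have h1 := hrep N
    rw [hN, pow_orderOf_eq_one] at h1
    exact (S.stSys X Z W).mem_H_of_rep_one h1
  have hqN : 1 < q ^ N := Nat.one_lt_pow hN0.ne' (by omega)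
  obtain ⟨h1, hh1, hpow⟩ := Hb_div Z W hh (m := q ^ N - 1) (by omega)
  have hsN : s^[N] h1 = h1 ^ q ^ N := by
    rw [(hit N h1 hh1).1, Hb_comm Z W hnN (S.Hb.pow_mem hh1 _), mul_inv_cancel_right]
  have hnorm : ∀ m : ℕ, ∃ k ∈ S.Hb, s k * h1 = k * s^[m] h1 := by
    intro m
    induction m with
    | zero => exact ⟨1, S.Hb.one_mem, by simp [hs]⟩
    | succ m ih =>
      obtain ⟨k, hk, e⟩ := ih
      have hm := (hit m h1 hh1).2
      refine ⟨k * s^[m] h1, S.Hb.mul_mem hk hm, ?_⟩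
      have e1 : s (k * s^[m] h1) = s k * s (s^[m] h1) := by
        rw [hs, hs, hs, map_mul]; group
      rw [e1, Function.iterate_succ_apply', mul_assoc, Hb_comm Z W (hsH _ hm) hh1, ← mul_assoc, e]
  obtain ⟨k, hk, e⟩ := hnorm N
  refine ⟨k, hk, ?_⟩
  rw [hsN] at e
  have e2 : s k = k * (h1 ^ (q ^ N) * h1⁻¹) := by rw [← mul_assoc, ← e, mul_inv_cancel_right]
  have e3 : h1 ^ (q ^ N) * h1⁻¹ = h := by
    rw [← hpow]
    have : q ^ N = (q ^ N - 1) + 1 := by omega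
    rw [this, pow_succ, mul_inv_cancel_right, Nat.add_sub_cancel]
  change s k * k⁻¹ = h
  rw [e2, e3, Hb_comm Z W hk hh, mul_inv_cancel_right]

/-- **Lang's theorem** in the universal group -/
theorem lang_univ : ∃ x, x⁻¹ * Fb x = n := by
  obtain ⟨x0, hx0, e0⟩ := H22.LangChev.lang R Z φ q hq hφ (θ_group (S := S) n)
  obtain ⟨x, rfl⟩ := θ_surj (S := S) hx0
  have h1 : n⁻¹ * (x⁻¹ * Fb x) ∈ S.θ.ker := by
    rw [MonoidHom.mem_ker, map_mul, map_mul, map_inv, map_inv, U.θ, e0, inv_mul_cancel]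
  have hH : n⁻¹ * (x⁻¹ * Fb x) ∈ S.Hb := S.ker_le X Z W h1
  rw [S.ker_eq_center X Z W, Subgroup.mem_center_iff] at h1
  set z := n⁻¹ * (x⁻¹ * Fb x) with hz
  obtain ⟨k, hk, e⟩ := torus_lang Z W U hφ hq hn hFn (S.Hb.inv_mem hH)
  refine ⟨x * k, ?_⟩
  have e1 : Fb x = x * n * z := by rw [hz]; group
  have e2 : n * Fb k * n⁻¹ = z⁻¹ * k := by rw [← e]; group
  rw [map_mul, e1]
  calc (x * k)⁻¹ * (x * n * z * Fb k) = k⁻¹ * (n * (z * Fb k)) := by group
    _ = k⁻¹ * (n * (Fb k * z)) := by rw [← h1 (Fb k)]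
    _ = k⁻¹ * (n * Fb k * n⁻¹) * (n * z) := by group
    _ = k⁻¹ * (z⁻¹ * k) * (n * z) := by rw [e2]
    _ = (k⁻¹ * (z⁻¹ * k) * n) * z := by group
    _ = z * (k⁻¹ * (z⁻¹ * k) * n) := by rw [h1]
    _ = (z * k⁻¹) * z⁻¹ * k * n := by group
    _ = (k⁻¹ * z) * z⁻¹ * k * n := by rw [h1]
    _ = n := by group

omit hn hFn hq

/-- the fixed points of Frobenius in the universal group -/
theorem fixed_univ (hψ : Function.Injective (S.psi X Z W)) {g : Gb} (hg : Fb g = g) :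
    g ∈ Subgroup.closure {g | ∃ (r : ℕ) (t : K), r < D.nroots ∧ φ t = t ∧ g = S.xb r t} := by
  set Lb := Subgroup.closure {g | ∃ (r : ℕ) (t : K), r < D.nroots ∧ φ t = t ∧ g = S.xb r t} with hLb
  have hFL : ∀ l ∈ Lb, Fb l = l := by
    intro l hl
    have : Lb ≤ MonoidHom.eqLocus Fb (MonoidHom.id _) := by
      rw [hLb, Subgroup.closure_le]
      rintro _ ⟨r, t, hr, ht, rfl⟩
      change Fb _ = _
      rw [U.x r hr, ht]; rfl
    exact this hl
  have hxL : ∀ r < D.nroots, ∀ t, φ t = t → S.xb r t ∈ Lb := fun r hr t ht =>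
    Subgroup.subset_closure ⟨r, t, hr, ht, rfl⟩
  obtain ⟨l, hl, h, hh, hfh, e⟩ := H47.ChevSub.fixed_decomp R φ Z (θ_group (S := S) g)
    (by rw [← U.θ, hg])
  have hl' : ∃ l' ∈ Lb, S.θ l' = l := by
    clear e
    unfold H47.ChevSub.L at hl
    induction hl using Subgroup.closure_induction with
    | mem x hx =>
      obtain ⟨r, t, ht, rfl⟩ := hx
      by_cases hr : r < D.nroots
      · exact ⟨S.xb r t, hxL r hr t ht, S.θ_x r hr t⟩
      · exact ⟨1, one_mem _, by rw [map_one, xg_of_le R hr]⟩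
    | one => exact ⟨1, one_mem _, map_one _⟩
    | mul x y _ _ hx hy =>
      obtain ⟨a, ha, rfl⟩ := hx
      obtain ⟨b, hb, rfl⟩ := hy
      exact ⟨a * b, mul_mem ha hb, map_mul _ _ _⟩
    | inv x _ hx =>
      obtain ⟨a, ha, rfl⟩ := hx
      exact ⟨a⁻¹, inv_mem ha, map_inv _ _⟩
  obtain ⟨l', hlL, rfl⟩ := hl'
  have h1 : l'⁻¹ * g ∈ S.Hb := by
    apply mem_Hb_of_θ Z W
    rw [map_mul, map_inv, e, inv_mul_cancel_left]
    exact hh
  have h2 : Fb (l'⁻¹ * g) = l'⁻¹ * g := by rw [map_mul, map_inv, hFL _ hlL, hg]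
  rw [← S.psi_range X Z W] at h1
  obtain ⟨c, hc⟩ := h1
  rw [← hc, U.psi Z W hφ] at h2
  have h3 : c ^ q = c := hψ h2
  have h4 : S.psi X Z W c ∈ Lb := by
    rw [H22.TwX.psi_list Z W (List.finRange D.rank) (List.nodup_finRange _)
      (fun i => List.mem_finRange i)]
    apply Subgroup.list_prod_mem
    intro x hx
    obtain ⟨i, _, rfl⟩ := List.mem_map.1 hx
    have hi := X.rc.simple_lt i i.2
    have hci : φ (c i : K) = c i := by
      rw [hφ, ← Units.val_pow_eq_pow_val]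
      exact congrArg Units.val (congrFun h3 i)
    have hnb : ∀ t, φ t = t → S.nb (D.simple i) t ∈ Lb := by
      intro t ht
      rw [S.nb_def]
      exact mul_mem (mul_mem (hxL _ hi _ ht) (hxL _ (neg_lt X.rc hi) _
        (by rw [map_neg, map_inv₀, ht]))) (hxL _ hi _ ht)
    rw [S.hb_def]
    exact mul_mem (hnb _ hci) (hnb _ (by rw [map_neg, map_one]))
  have := mul_mem hlL h4
  rwa [hc, mul_inv_cancel_left] at this

/-! ### counting -/

omit U hφ in
/-- a homomorphism defined on a subgroup -/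
theorem card_of_hom {G H : Type*} [Group G] [Group H] (C : Subgroup G) (f : G → H)
    (hf : ∀ a ∈ C, ∀ b ∈ C, f (a * b) = f a * f b) (A : Subgroup H) (B : Subgroup G)
    (hA : ∀ y, y ∈ A ↔ ∃ a ∈ C, f a = y) (hB : ∀ a, a ∈ B ↔ a ∈ C ∧ f a = 1) :
    Nat.card C = Nat.card B * Nat.card A := by
  let g : C →* H := MonoidHom.mk' (fun a => f a) (fun a b => hf a a.2 b b.2)
  have h1 := Subgroup.card_mul_index g.ker
  rw [Subgroup.index_ker] at h1
  have h2 : Nat.card g.ker = Nat.card B := by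
    refine Nat.card_congr ⟨fun a => ⟨a.1.1, (hB _).2 ⟨a.1.2, a.2⟩⟩,
      fun a => ⟨⟨a.1, ((hB _).1 a.2).1⟩, ((hB _).1 a.2).2⟩, fun a => rfl, fun a => rfl⟩
  have h3 : g.range = A := by
    ext y
    rw [hA]
    constructor
    · rintro ⟨a, rfl⟩; exact ⟨a, a.2, rfl⟩
    · rintro ⟨a, ha, rfl⟩; exact ⟨⟨a, ha⟩, rfl⟩
  rw [h2, h3] at h1
  exact h1.symm

include hn hFn hq

/-- the index of the torus of the derived group in the torus of the adjoint group -/
theorem card_tw (hT : ∀ z : Fin D.rank → Kˣ, Tz X z ∈ Hs R)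
    {M : (Fin D.rank → ℤ) →+ (Fin D.rank → ℤ)} (hM : ∀ r, v X (w r) = M (v X r))
    (hfin : Finite (chi D K).ker) (A' : Subgroup (Fin D.rank → Kˣ))
    (hA' : ∀ z, z ∈ A' ↔ ∃ h ∈ S.Hb, n * Fb h * n⁻¹ = h ∧ S.θ h = Tz X z) :
    A' ≤ tw Kˣ M q ∧ Nat.card A' * Nat.card ((Subgroup.center Gb) ⊓ Fb.eqLocus (MonoidHom.id Gb) :
      Subgroup Gb) = Nat.card (tw Kˣ M q) := by
  set A := tw Kˣ M q with hAdef
  have ST := stein_frob R Z φ q hq hφ
  have hn' := S.rep_map X Z W hn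
  have hfix : ∀ z, S.θ n * Matrix.GeneralLinearGroup.map φ (Tz X z) * (S.θ n)⁻¹ = Tz X z ↔ z ∈ A :=
    fun z => ST.fix_iff hT hn' (by simpa using hM) z
  have hz : S.θ.ker = Subgroup.center Gb := S.ker_eq_center X Z W
  have hzH : Subgroup.center Gb ≤ S.Hb := by rw [← hz]; exact S.ker_le X Z W
  -- the inverse image of `A`
  let C : Subgroup Gb := S.Hb ⊓ (A.map (Tz X)).comap S.θ
  let B : Subgroup Gb := S.Hb ⊓ MonoidHom.eqLocus ((MulAut.conj n).toMonoidHom.comp Fb) (MonoidHom.id Gb)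
  have hmemC : ∀ h, h ∈ C ↔ h ∈ S.Hb ∧ ∃ z ∈ A, Tz X z = S.θ h := fun h => Iff.rfl
  have hmemB : ∀ h, h ∈ B ↔ h ∈ S.Hb ∧ n * Fb h * n⁻¹ = h := fun h => Iff.rfl
  have hθs : ∀ h, S.θ (n * Fb h * n⁻¹) =
      S.θ n * Matrix.GeneralLinearGroup.map φ (S.θ h) * (S.θ n)⁻¹ := by
    intro h; rw [map_mul, map_mul, map_inv, U.θ]
  have hBA : ∀ h ∈ B, ∀ z, S.θ h = Tz X z → z ∈ A := by
    intro h hh z hz
    have h1 := congrArg S.θ ((hmemB h).1 hh).2
    rw [hθs, hz] at h1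
    exact (hfix z).1 h1
  have hsH : ∀ k ∈ S.Hb, n * Fb k * n⁻¹ ∈ S.Hb := by
    intro k hk
    rw [U.Hb_pow Z W hφ hk]
    exact (S.stSys X Z W).N_conj_H hn.1 (S.Hb.pow_mem hk q)
  have hCiff : ∀ h ∈ S.Hb, (h ∈ C ↔ n * Fb h * n⁻¹ * h⁻¹ ∈ Subgroup.center Gb) := by
    intro h hh
    obtain ⟨z, hz'⟩ := Hs_le_Tz R X (θ_Hb (S := S) X hh)
    rw [← hz, MonoidHom.mem_ker, map_mul, map_inv, hθs, mul_inv_eq_one, hz', hfix, hmemC]
    constructor
    · rintro ⟨_, z', hz1, hz2⟩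
      rw [hz'] at hz2
      rw [← Tz_inj X hz2]; exact hz1
    · intro h1; exact ⟨hh, z, h1, hz'.symm⟩
  -- the first count
  have e1 : Nat.card C = Nat.card (Subgroup.center Gb) * Nat.card (A.map (Tz X)) := by
    refine card_of_hom C S.θ (fun a _ b _ => map_mul _ _ _) _ _ ?_ ?_
    · intro y
      constructor
      · rintro ⟨z, hz1, rfl⟩
        obtain ⟨h, hh⟩ := θ_surj (S := S) (g := Tz X z) (by
          rw [← chevSys_Γ R X]
          apply (chevSys R X).N_le_Γ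
          apply (chevSys R X).H_le_N
          rw [chevSys_H, diagonalSubgroup_eq R X]
          exact hT z)
        exact ⟨h, (hmemC h).2 ⟨mem_Hb_of_θ Z W (by rw [hh]; exact hT z), z, hz1, hh.symm⟩, hh⟩
      · rintro ⟨h, hh, rfl⟩
        obtain ⟨_, z, hz1, hz2⟩ := (hmemC h).1 hh
        exact ⟨z, hz1, hz2⟩
    · intro a
      rw [← hz, MonoidHom.mem_ker]
      constructor
      · intro h
        refine ⟨(hmemC a).2 ⟨S.ker_le X Z W h, 1, one_mem _, by rw [map_one, h]⟩, h⟩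
      · exact fun h => h.2
  -- the second count
  have e2 : Nat.card C = Nat.card B * Nat.card (Subgroup.center Gb) := by
    refine card_of_hom C (fun h => n * Fb h * n⁻¹ * h⁻¹) ?_ _ _ ?_ ?_
    · intro a ha b hb
      have ha' := ((hmemC a).1 ha).1
      have hb' := ((hmemC b).1 hb).1
      have h1 : (b⁻¹ * a⁻¹ : Gb) = a⁻¹ * b⁻¹ := Hb_comm Z W (inv_mem hb') (inv_mem ha')
      have h2 := Hb_comm Z W (hsH b hb') (inv_mem ha')
      rw [map_mul, mul_inv_rev, h1]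
      calc n * (Fb a * Fb b) * n⁻¹ * (a⁻¹ * b⁻¹) =
          (n * Fb a * n⁻¹) * ((n * Fb b * n⁻¹) * a⁻¹) * b⁻¹ := by group
        _ = (n * Fb a * n⁻¹) * (a⁻¹ * (n * Fb b * n⁻¹)) * b⁻¹ := by rw [h2]
        _ = _ := by group
    · intro y
      constructor
      · intro hy
        obtain ⟨k, hk, e⟩ := torus_lang Z W U hφ hq hn hFn (hzH hy)
        exact ⟨k, (hCiff k hk).2 (by rw [e]; exact hy), e⟩
      · rintro ⟨a, ha, rfl⟩
        exact (hCiff a ((hmemC a).1 ha).1).1 ha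
    · intro a
      rw [hmemB]
      constructor
      · rintro ⟨h1, h2⟩
        refine ⟨(hCiff a h1).2 (by rw [h2, mul_inv_cancel]; exact one_mem _), ?_⟩
        simp only [h2, mul_inv_cancel]
      · rintro ⟨h1, h2⟩
        exact ⟨((hmemC a).1 h1).1, mul_inv_eq_one.1 h2⟩
  -- the third count
  have e3 : Nat.card B = Nat.card ((Subgroup.center Gb) ⊓ Fb.eqLocus (MonoidHom.id Gb) :
      Subgroup Gb) * Nat.card (A'.map (Tz X)) := by
    refine card_of_hom B S.θ (fun a _ b _ => map_mul _ _ _) _ _ ?_ ?_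
    · intro y
      constructor
      · rintro ⟨z, hz1, rfl⟩
        obtain ⟨h, hh, h2, h3⟩ := (hA' z).1 hz1
        exact ⟨h, (hmemB h).2 ⟨hh, h2⟩, h3⟩
      · rintro ⟨h, hh, rfl⟩
        obtain ⟨z, hz'⟩ := Hs_le_Tz R X (θ_Hb (S := S) X ((hmemB h).1 hh).1)
        exact ⟨z, (hA' z).2 ⟨h, ((hmemB h).1 hh).1, ((hmemB h).1 hh).2, hz'⟩, hz'.symm⟩
    · intro a
      constructor
      · rintro ⟨h1, h2⟩
        have h2' : Fb a = a := h2
        refine ⟨(hmemB a).2 ⟨hzH h1, ?_⟩, ?_⟩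
        · have h3 := Subgroup.mem_center_iff.1 h1 n
          rw [h2', h3, mul_inv_cancel_right]
        · rw [← hz] at h1; exact h1
      · rintro ⟨h1, h2⟩
        have h3 : a ∈ Subgroup.center Gb := by rw [← hz]; exact h2
        refine ⟨h3, ?_⟩
        have h4 := ((hmemB a).1 h1).2
        have h5 := Subgroup.mem_center_iff.1 h3 n
        have h6 : n * Fb a = n * a := by
          rw [h5]
          exact (mul_inv_eq_iff_eq_mul.1 h4)
        exact mul_left_cancel h6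
  have hcz : Nat.card (Subgroup.center Gb) ≠ 0 := by
    haveI : Finite (Subgroup.center Gb) := by
      rw [S.center_eq X Z W]
      have : Function.Surjective (fun c : (chi D K).ker =>
          (⟨S.psi X Z W c.1, ⟨c.1, c.2, rfl⟩⟩ : ((chi D K).ker.map (S.psi X Z W) : Subgroup Gb))) := by
        rintro ⟨_, ⟨c, hc, rfl⟩⟩
        exact ⟨⟨c, hc⟩, rfl⟩
      exact Finite.of_surjective _ this
    exact Nat.card_pos.ne'
  have hcardmap : ∀ Q : Subgroup (Fin D.rank → Kˣ), Nat.card (Q.map (Tz X)) = Nat.card Q := by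
    intro Q
    exact (Nat.card_congr (Q.equivMapOfInjective _ (Tz_inj X)).toEquiv).symm
  refine ⟨?_, ?_⟩
  · intro z hz1
    obtain ⟨h, hh, h2, h3⟩ := (hA' z).1 hz1
    exact hBA h ((hmemB h).2 ⟨hh, h2⟩) z h3
  · rw [hcardmap] at e1 e3
    rw [e1, mul_comm] at e2
    have h4 := mul_right_cancel₀ hcz e2
    rw [h4, e3, mul_comm]

end Main

end H22.TorUniv
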