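import Cfsg.Agent.Lib.H22.TorusLat
import Cfsg.Agent.Lib.H22.LangChev

/-!
# Tori: characters, conjugation and centralisers
-/

set_option autoImplicit false
set_option linter.style.haveILetI false
set_option linter.unusedSectionVars false
set_option linter.unusedSimpArgs false

namespace H22.TorusCore

open H22.RGD H22.Coord H22.RCCheck H22.RCComb H22.ChevTri H22.ChevRel H22.ChevSys H22.ChevMain
open H22.ChevStd H22.ChevUni H22.ChevTorus H22.Lang H22.LangChev H22.TorusLat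
open Cfsg.Lie (ChevalleyDatum)
open scoped MatrixGroups Matrix

variable {D : ChevalleyDatum} {K : Type*} [Field K] (R : Rel D K) (X : RCX D)

/-- coordinates of a root -/
abbrev v (r : Fin D.nroots) : Fin D.rank → ℤ := (coord X).co r

/-- the torus element with given values at the simple roots -/
def Tz : (Fin D.rank → Kˣ) →* GL D.Idx K :=
  (dg D K).comp
    { toFun := fun z r => E z (v X r)
      map_one' := by funext r; exact E_one _
      map_mul' := fun z z' => by funext r; exact E_mul _ _ _ }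

theorem Tz_val (z : Fin D.rank → Kˣ) : ((Tz X z : GL D.Idx K) : Matrix D.Idx D.Idx K) =
    Matrix.diagonal (Sum.elim (fun _ => (1 : K))
      (fun s : Fin D.nroots => ((E z (v X s) : Kˣ) : K))) := rfl

theorem Tz_inj : Function.Injective (Tz (K := K) X) := by
  intro z z' h
  have h1 := dg_injective h
  funext j
  have h2 := congrFun h1 ((comb X).simple j)
  change E z (v X ((comb X).simple j)) = E z' (v X ((comb X).simple j)) at h2
  have h3 : v X ((comb X).simple j) = Pi.single j 1 := by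
    funext k
    change (coord X).co ((comb X).simple j) k = _
    rw [(coord X).co_simple]
    by_cases hk : k = j
    · subst hk; simp
    · simp [hk]
  rwa [h3, E_single, E_single] at h2

theorem v_simple (j : Fin D.rank) : v X ((comb X).simple j) = Pi.single j 1 := by
  funext k
  change (coord X).co ((comb X).simple j) k = _
  rw [(coord X).co_simple]
  by_cases hk : k = j
  · subst hk; simp
  · simp [hk]

theorem chi_eq (c : Fin D.rank → Kˣ) (s : Fin D.nroots) :
    chi D K c s = E (fun j => ∏ i, c i ^ X.rc.A i j) (v X s) := by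
  unfold E
  change ∏ i, c i ^ (D.cartan i s) = _
  have e : ∀ i : Fin D.rank, c i ^ (D.cartan i s) =
      ∏ k : Fin D.rank, (c i ^ (X.rc.A i k)) ^ (v X s k) := by
    intro i
    rw [X.rc.cartan_eq i i.2 s s.2, Finset.sum_range, zpow_finset_sum]
    exact Finset.prod_congr rfl (fun k _ => zpow_mul (c i) _ _)
  rw [Finset.prod_congr rfl (fun i _ => e i), Finset.prod_comm]
  exact Finset.prod_congr rfl fun k _ => Finset.prod_zpow _ _ _

theorem Hs_iff {h : GL D.Idx K} : h ∈ Hs R ↔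
    ∃ c : Fin D.rank → Kˣ, h = Tz X (fun j => ∏ i, c i ^ X.rc.A i j) := by
  rw [← diagonalSubgroup_eq R X, diagonalSubgroup_eq_range R X]
  constructor
  · rintro ⟨c, rfl⟩
    refine ⟨c, ?_⟩
    rw [MonoidHom.comp_apply]
    unfold Tz
    rw [MonoidHom.comp_apply]
    congr 1
    funext s
    exact chi_eq X c s
  · rintro ⟨c, rfl⟩
    refine ⟨c, ?_⟩
    rw [MonoidHom.comp_apply]
    unfold Tz
    rw [MonoidHom.comp_apply]
    congr 1
    funext s
    exact chi_eq X c s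

theorem Hs_le_Tz {h : GL D.Idx K} (hh : h ∈ Hs R) : ∃ z, h = Tz X z := by
  obtain ⟨c, hc⟩ := (Hs_iff R X).1 hh
  exact ⟨_, hc⟩

/-- Over an algebraically closed field the torus contains all characters. -/
theorem Tz_mem [IsAlgClosed K] (B : Fin D.rank → Fin D.rank → ℤ) (d : ℕ) (hd : 0 < d)
    (hB : ∀ k j : Fin D.rank, ∑ i, B k i * X.rc.A i j = if k = j then (d : ℤ) else 0)
    (z : Fin D.rank → Kˣ) : Tz X z ∈ Hs R := by
  have hroot : ∀ k, ∃ y : Kˣ, y ^ d = z k := by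
    intro k
    obtain ⟨y, hy⟩ := IsAlgClosed.exists_pow_nat_eq ((z k : Kˣ) : K) hd
    have hy0 : y ≠ 0 := by
      rintro rfl
      rw [zero_pow hd.ne'] at hy
      exact (z k).ne_zero hy.symm
    exact ⟨Units.mk0 y hy0, Units.ext (by simpa using hy)⟩
  choose y hy using hroot
  rw [Hs_iff R X]
  refine ⟨fun i => ∏ k, y k ^ B k i, ?_⟩
  congr 1
  funext j
  have h1 : ∀ i, (∏ k, y k ^ B k i) ^ X.rc.A i j = ∏ k, y k ^ (B k i * X.rc.A i j) := by
    intro i
    rw [← Finset.prod_zpow]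
    exact Finset.prod_congr rfl fun k _ => (zpow_mul _ _ _).symm
  rw [Finset.prod_congr rfl (fun i _ => h1 i), Finset.prod_comm]
  have h2 : ∀ k, ∏ i, y k ^ (B k i * X.rc.A i j) = y k ^ (if k = j then (d : ℤ) else 0) := by
    intro k
    rw [← zpow_finset_sum, hB]
  rw [Finset.prod_congr rfl (fun k _ => h2 k), Finset.prod_eq_single j]
  · simp [hy]
  · intro k _ hk; simp [hk]
  · simp

/-- action of a torus element on root elements -/
theorem Tz_conj {z : Fin D.rank → Kˣ} (hz : Tz X z ∈ Hs R) (r : Fin D.nroots) (t : K) :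
    Tz X z * xg R r t * (Tz X z)⁻¹ = xg R r (((E z (v X r) : Kˣ) : K) * t) := by
  obtain ⟨χ, h1, h2, h3⟩ := H47.ChevSub.exists_char R X.rc hz
  rw [h2 r r.2]
  rw [Tz_val] at h3
  have h4 := Matrix.diagonal_injective h3
  have h5 := congrFun h4 (Sum.inr r)
  simp only [Sum.elim_inr] at h5
  rw [h5]

/-- conjugation by representatives of Weyl group elements -/
theorem rep_lin {m : GL D.Idx K} {w : Equiv.Perm (Fin D.nroots)}
    (hm : (chevSys R X).Rep m w) : ∃ κ : Fin D.nroots → K, (∀ r, κ r ≠ 0) ∧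
      ∀ (r : Fin D.nroots) (t : K), m * xg R r t * m⁻¹ = xg R (w r) (κ r * t) := by
  obtain ⟨L, rfl⟩ := (comb X).exists_word hm.2.1
  have hl := (chevSys R X).rep_nw L
  obtain ⟨h, hh, rfl⟩ := (chevSys R X).rep_mod_H hl hm
  obtain ⟨ε, h1, h2⟩ := exists_sign_word R X L
  have hh' : h ∈ Hs R := by rw [← diagonalSubgroup_eq R X]; exact hh
  obtain ⟨z, rfl⟩ := Hs_le_Tz R X hh'
  refine ⟨fun r => ε r * ((E z (v X r) : Kˣ) : K), fun r => mul_ne_zero ?_ (Units.ne_zero _), ?_⟩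
  · rcases (h1 r).1 with h | h <;> rw [h] <;> simp
  · intro r t
    rw [← nsw_eq_nw R X L]
    calc nsw R L * Tz X z * xg R r t * (nsw R L * Tz X z)⁻¹
        = nsw R L * (Tz X z * xg R r t * (Tz X z)⁻¹) * (nsw R L)⁻¹ := by group
      _ = _ := by rw [Tz_conj R X hh', h2, mul_assoc]

theorem rep_Tz {m : GL D.Idx K} {w : Equiv.Perm (Fin D.nroots)}
    (hm : (chevSys R X).Rep m w) {z z' : Fin D.rank → Kˣ} (hz : Tz X z ∈ Hs R)
    (hz' : Tz X z' ∈ Hs R) (h : m * Tz X z * m⁻¹ = Tz X z') (r : Fin D.nroots) :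
    E z' (v X (w r)) = E z (v X r) := by
  obtain ⟨κ, h1, h2⟩ := rep_lin R X hm
  have h3 : Tz X z' * xg R (w r) (κ r * 1) * (Tz X z')⁻¹ =
      xg R (w r) (κ r * ((E z (v X r) : Kˣ) : K)) := by
    rw [← h, ← h2 r 1]
    calc m * Tz X z * m⁻¹ * (m * xg R r 1 * m⁻¹) * (m * Tz X z * m⁻¹)⁻¹
        = m * (Tz X z * xg R r 1 * (Tz X z)⁻¹) * m⁻¹ := by group
      _ = _ := by rw [Tz_conj R X hz, h2, mul_one]
  rw [Tz_conj R X hz', mul_one] at h3
  have h4 := xg_inj R X.rc (w r).2 h3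
  rw [mul_comm] at h4
  exact Units.ext (mul_left_cancel₀ (h1 r) h4)

/-- characters of conjugates -/
theorem rep_Tz_iff {m : GL D.Idx K} {w : Equiv.Perm (Fin D.nroots)}
    (hm : (chevSys R X).Rep m w) {z z' : Fin D.rank → Kˣ} (hz : Tz X z ∈ Hs R)
    (hz' : Tz X z' ∈ Hs R) :
    m * Tz X z * m⁻¹ = Tz X z' ↔ ∀ r, E z' (v X (w r)) = E z (v X r) := by
  constructor
  · exact rep_Tz R X hm hz hz'
  · intro h
    have h1 : m * Tz X z * m⁻¹ ∈ Hs R := by
      rw [← diagonalSubgroup_eq R X] at hz ⊢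
      exact (chevSys R X).N_conj_H hm.1 hz
    obtain ⟨z'', hz''⟩ := Hs_le_Tz R X h1
    have h2 := rep_Tz R X hm hz (by rw [← hz'']; exact h1) hz''
    rw [hz'']
    unfold Tz
    rw [MonoidHom.comp_apply, MonoidHom.comp_apply]
    congr 1
    funext s
    change E z'' (v X s) = E z' (v X s)
    have h3 := h (w⁻¹ s)
    have h4 := h2 (w⁻¹ s)
    have hws : w (w⁻¹ s) = s := by simp
    rw [hws] at h3 h4
    rw [h3, h4]

/-- An element of `U` commuting with torus elements on which no root is trivial. -/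
theorem U_eq_one {X : RCX D} (Z : Lex X.rc) {A : Set (Fin D.rank → Kˣ)}
    (hA : ∀ z ∈ A, Tz X z ∈ Hs R)
    (hr : ∀ r : Fin D.nroots, ∃ z ∈ A, E z (v X r) ≠ 1) {u : GL D.Idx K}
    (hu : u ∈ (chevSys R X).U) (hc : ∀ z ∈ A, Tz X z * u * (Tz X z)⁻¹ = u) : u = 1 := by
  have hn : X.rc.half + X.rc.half = D.nroots := by have := X.rc.nroots_eq; omega
  rw [chevSys_U, posUnipotent_eq_Vk R X.rc, mem_Vk_iff R Z X.rc.half X.rc.half hn le_rfl] at hu
  obtain ⟨t, rfl⟩ := hu
  have h0 : ∀ r, X.rc.half ≤ r → r < D.nroots → t r = 0 := by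
    intro r h1 h2
    obtain ⟨z, hz, hne⟩ := hr ⟨r, h2⟩
    have h3 := hc z hz
    have h4 : Tz X z * pr R t X.rc.half X.rc.half * (Tz X z)⁻¹ =
        pr R (fun s => if h : s < D.nroots then ((E z (v X ⟨s, h⟩) : Kˣ) : K) * t s else t s)
          X.rc.half X.rc.half := by
      unfold pr
      have : Tz X z * (List.map (fun r => xg R r (t r)) (List.range' X.rc.half X.rc.half)).prod *
          (Tz X z)⁻¹ = MulAut.conj (Tz X z) (List.map (fun r => xg R r (t r))
            (List.range' X.rc.half X.rc.half)).prod := rfl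
      rw [this, map_list_prod, List.map_map]
      congr 1
      apply List.map_congr_left
      intro s hs
      rw [List.mem_range'_1] at hs
      have hs' : s < D.nroots := by omega
      simp only [Function.comp_apply, MulAut.conj_apply, dif_pos hs']
      exact Tz_conj R X (hA z hz) ⟨s, hs'⟩ (t s)
    rw [h4] at h3
    have h5 := pr_inj R Z X.rc.half X.rc.half hn le_rfl h3 r h1 h2
    simp only [dif_pos h2] at h5
    by_contra hne0
    exact hne (Units.ext (by
      have := mul_right_cancel₀ hne0 (h5.trans (one_mul (t r)).symm)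
      simpa using this))
  rw [pr_congr R (t' := fun _ => 0) (fun r h1 h2 => h0 r h1 (by omega))]
  unfold pr
  simp [xg_zero]

/-- Centraliser of a set of torus elements on which no root is trivial. -/
theorem cent {X : RCX D} (Z : Lex X.rc) {A : Set (Fin D.rank → Kˣ)}
    (hA : ∀ z ∈ A, Tz X z ∈ Hs R)
    (hr : ∀ r : Fin D.nroots, ∃ z ∈ A, E z (v X r) ≠ 1) {g : GL D.Idx K}
    (hg : g ∈ D.group K) (hc : ∀ z ∈ A, Tz X z * g * (Tz X z)⁻¹ = g) :
    ∃ w, (chevSys R X).Rep g w ∧ ∀ z ∈ A, ∀ r, E z (v X (w r)) = E z (v X r) := by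
  have hgΓ : g ∈ (chevSys R X).Γ := by rw [chevSys_Γ]; exact hg
  obtain ⟨b, hb, m, w, hm, u, hu, rfl⟩ := (chevSys R X).normal_form hgΓ
  set S := chevSys R X with hS
  have hH : ∀ z ∈ A, Tz X z ∈ S.H := by
    intro z hz
    have := hA z hz
    rw [← diagonalSubgroup_eq R X] at this
    exact this
  obtain ⟨y, hy, h1, hh1, rfl⟩ := S.mem_B.1 hb
  have key : ∀ z ∈ A, Tz X z * y * (Tz X z)⁻¹ = y ∧ Tz X z * u * (Tz X z)⁻¹ = u ∧
      m * Tz X z * m⁻¹ = Tz X z := by
    intro z hz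
    have haH := hH z hz
    have hcz := hc z hz
    have hcomm : Tz X z * h1 = h1 * Tz X z := by
      obtain ⟨z1, hz1⟩ := Hs_le_Tz R X (h := h1)
        (by rw [← diagonalSubgroup_eq R X]; exact hh1)
      rw [hz1, ← map_mul, ← map_mul, mul_comm]
    generalize Tz X z = a at haH hcz hcomm ⊢
    have h2 : m * a⁻¹ * m⁻¹ ∈ S.H := S.N_conj_H hm.1 (S.H.inv_mem haH)
    have e : (a * (y * h1) * (m * a⁻¹ * m⁻¹)) * m * (a * u * a⁻¹) = (y * h1) * m * u := by
      calc (a * (y * h1) * (m * a⁻¹ * m⁻¹)) * m * (a * u * a⁻¹)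
          = a * (y * h1 * m * u) * a⁻¹ := by group
        _ = _ := hcz
    have hu' : a * u * a⁻¹ ∈ S.Um w := by
      have := S.H_le_stab_iSup (fun s : {s // (comb X).pos s ∧ ¬ (comb X).pos (w s)} =>
        (s : Fin D.nroots))
      exact conj_mem_of_stabSub (this haH) hu
    obtain ⟨e1, e2⟩ := S.normal_form_unique hm
      (S.B.mul_mem (S.B.mul_mem (S.H_le_B haH) hb) (S.H_le_B h2)) hb hu' hu e
    have e3 : y⁻¹ * (a * y * a⁻¹) = 1 := by
      apply S.eq_one_of_mem_U_H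
      · exact S.U.mul_mem (S.U.inv_mem hy) (conj_mem_of_stabSub (S.H_le_stab_U haH) hy)
      · have : y⁻¹ * (a * y * a⁻¹) = h1 * (a * h1 * (m * a⁻¹ * m⁻¹))⁻¹ := by
          have e4 : a * y * a⁻¹ * (a * h1 * (m * a⁻¹ * m⁻¹)) = y * h1 := by
            rw [← e1]; group
          rw [eq_mul_inv_iff_mul_eq, mul_assoc, e4]; simp
        rw [this]
        exact S.H.mul_mem hh1 (S.H.inv_mem (S.H.mul_mem (S.H.mul_mem haH hh1) h2))
    have e5 : a * y * a⁻¹ = y := (inv_mul_eq_one.1 e3).symm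
    refine ⟨e5, e2, ?_⟩
    have e6 : a * h1 * (m * a⁻¹ * m⁻¹) = h1 := by
      have e4 : a * y * a⁻¹ * (a * h1 * (m * a⁻¹ * m⁻¹)) = y * h1 := by
        rw [← e1]; group
      rw [e5] at e4
      exact mul_left_cancel e4
    rw [hcomm, mul_assoc] at e6
    have e7 : a * (m * a⁻¹ * m⁻¹) = 1 := mul_left_cancel (e6.trans (mul_one h1).symm)
    have e8 : m * a⁻¹ * m⁻¹ = a⁻¹ := (eq_inv_of_mul_eq_one_right e7)
    have e9 : (m * a⁻¹ * m⁻¹)⁻¹ = a := by rw [e8, inv_inv]
    calc m * a * m⁻¹ = (m * a⁻¹ * m⁻¹)⁻¹ := by group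
      _ = a := e9
  have hu1 : u = 1 := U_eq_one R Z hA hr (S.Um_le_U _ hu) (fun z hz => (key z hz).2.1)
  have hy1 : y = 1 := U_eq_one R Z hA hr hy (fun z hz => (key z hz).1)
  subst hu1 hy1
  refine ⟨w, ?_, ?_⟩
  · have : 1 * h1 * m * 1 = h1 * m := by group
    rw [this]
    have h5 := (S.rep_H hh1).mul hm
    rwa [one_mul] at h5
  · intro z hz r
    exact rep_Tz R X hm (hA z hz) (hA z hz) (key z hz).2.2 r

/-! ### the linear extension of a Weyl group element -/

/-- linear extension -/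
def lin (w : Equiv.Perm (Fin D.nroots)) : (Fin D.rank → ℤ) →+ (Fin D.rank → ℤ) where
  toFun u := ∑ k, u k • v X (w ((comb X).simple k))
  map_zero' := by simp
  map_add' a b := by simp [add_smul, Finset.sum_add_distrib]

theorem lin_v {w : Equiv.Perm (Fin D.nroots)} (hw : w ∈ (comb X).W) (r : Fin D.nroots) :
    v X (w r) = lin X w (v X r) := by
  funext j
  change (coord X).co (w r) j = (∑ k, (coord X).co r k • v X (w ((comb X).simple k))) j
  rw [(coord X).co_of_mem hw, Finset.sum_apply]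
  rfl

/-- A Steinberg endomorphism inducing `τ` on the roots. -/
structure Stein (τ : Equiv.Perm (Fin D.nroots)) (q : ℕ)
    (σ : GL D.Idx K →* GL D.Idx K) : Prop where
  G : ∀ g ∈ D.group K, σ g ∈ D.group K
  torus : ∀ z, ∃ z', σ (Tz X z) = Tz X z' ∧ ∀ r, E z' (v X (τ r)) = (E z (v X r)) ^ q
  rep : ∀ m w, (chevSys R X).Rep m w → (chevSys R X).Rep (σ m) (τ * w * τ⁻¹)
  lang : ∀ g ∈ D.group K, ∃ x ∈ D.group K, x⁻¹ * σ x = g

variable {R X}

/-- twisting the torus -/
theorem Stein.fix_iff {τ : Equiv.Perm (Fin D.nroots)} {q : ℕ} {σ : GL D.Idx K →* GL D.Idx K}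
    (S : Stein R X τ q σ) (hT : ∀ z : Fin D.rank → Kˣ, Tz X z ∈ Hs R)
    {n : GL D.Idx K} {w : Equiv.Perm (Fin D.nroots)} (hn : (chevSys R X).Rep n w)
    {M : (Fin D.rank → ℤ) →+ (Fin D.rank → ℤ)} (hM : ∀ r, v X (w (τ r)) = M (v X r))
    (z : Fin D.rank → Kˣ) : n * σ (Tz X z) * n⁻¹ = Tz X z ↔ z ∈ tw Kˣ M q := by
  obtain ⟨z', h1, h2⟩ := S.torus z
  rw [h1, rep_Tz_iff R X hn (hT z') (hT z)]
  constructor
  · intro h j
    have h3 := h (τ ((comb X).simple j))
    rw [hM, h2, v_simple, E_single] at h3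
    exact h3
  · intro h r
    have h3 := tw_map h (v X (τ⁻¹ r))
    rw [← hM] at h3
    have h4 := h2 (τ⁻¹ r)
    have h5 : τ (τ⁻¹ r) = r := by simp
    rw [h5] at h3 h4
    rw [h3, h4]

/-- **Self-centralising cyclic tori.** -/
theorem cyclic_torus [IsAlgClosed K] (Z : Lex X.rc) {τ : Equiv.Perm (Fin D.nroots)} {q : ℕ}
    {σ : GL D.Idx K →* GL D.Idx K} (S : Stein R X τ q σ)
    (hT : ∀ z : Fin D.rank → Kˣ, Tz X z ∈ Hs R)
    {w : Equiv.Perm (Fin D.nroots)} (hw : w ∈ (comb X).W)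
    {M : (Fin D.rank → ℤ) →+ (Fin D.rank → ℤ)} (hM : ∀ r, v X (w (τ r)) = M (v X r))
    {b : Fin D.nroots} {P : Fin D.rank → Fin D.rank → ℤ} {c : Fin D.rank → ℤ}
    (C : Cyc M (v X b) P c) {f : ℕ} (hf : fv c q = f) (hfK : (f : K) ≠ 0)
    {Gf : Type*} [Group Gf] (ι : Gf →* GL D.Idx K) (hι : Function.Injective ι)
    (hιG : ∀ y, ι y ∈ D.group K ∧ σ (ι y) = ι y)
    (hfix : ∀ g ∈ D.group K, σ g = g → ∃ y, ι y = g)
    (h1 : ∀ r, ¬ (f : ℤ) ∣ gv P q (v X r))
    (h2 : ∀ r, r ≠ b → (f : ℤ) ∣ gv P q (v X r) - 1 →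
      ∃ s, ∀ s', v X s' ≠ ∑ i, ac P (v X s) i • (M^[(i : ℕ)] (v X r))) :
    ∃ H : Subgroup Gf, IsCyclic H ∧ Nat.card H = f ∧
      Subgroup.centralizer (H : Set Gf) = H := by
  classical
  haveI hne : NeZero (f : K) := ⟨hfK⟩
  haveI hne' : NeZero f := ⟨fun h => hfK (by rw [h]; simp)⟩
  haveI : HasEnoughRootsOfUnity K f := inferInstance
  obtain ⟨n, hn⟩ := (chevSys R X).exists_rep' hw
  have hnG : n ∈ D.group K := by
    rw [← chevSys_Γ R X]; exact (chevSys R X).N_le_Γ hn.1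
  obtain ⟨x, hx, hxn⟩ := S.lang n hnG
  have hσx : σ x = x * n := by rw [← hxn]; group
  let A := tw Kˣ M q
  let φ : (Fin D.rank → Kˣ) →* GL D.Idx K := (MulAut.conj x).toMonoidHom.comp (Tz X)
  have hφ : ∀ z, φ z = x * Tz X z * x⁻¹ := fun z => rfl
  have hφinj : Function.Injective φ := by
    intro a b h
    exact Tz_inj X ((MulAut.conj x).injective h)
  have hTG : ∀ z, Tz X z ∈ D.group K := by
    intro z
    rw [← chevSys_Γ R X]
    apply (chevSys R X).N_le_Γ
    apply (chevSys R X).H_le_N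
    rw [chevSys_H, diagonalSubgroup_eq R X]
    exact hT z
  let H : Subgroup Gf := (A.map φ).comap ι
  have hlift : ∀ z ∈ A, ∃ y, ι y = φ z := by
    intro z hz
    apply hfix
    · rw [hφ]; exact mul_mem (mul_mem hx (hTG z)) (inv_mem hx)
    · have h3 := (S.fix_iff hT hn hM z).2 hz
      rw [hφ, map_mul, map_mul, map_inv, hσx]
      calc x * n * σ (Tz X z) * (x * n)⁻¹ = x * (n * σ (Tz X z) * n⁻¹) * x⁻¹ := by group
        _ = _ := by rw [h3]
  have hHmap : H.map ι = A.map φ := by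
    apply le_antisymm
    · exact Subgroup.map_comap_le _ _
    · rintro _ ⟨z, hz, rfl⟩
      obtain ⟨y, hy⟩ := hlift z hz
      exact ⟨y, Subgroup.mem_comap.2 (by rw [hy]; exact ⟨z, hz, rfl⟩), hy⟩
  let e1 : H ≃* A :=
    (H.equivMapOfInjective ι hι).trans ((MulEquiv.subgroupCongr hHmap).trans
      (A.equivMapOfInjective φ hφinj).symm)
  have hker : (zpowGroupHom (α := Kˣ) (fv c q)).ker = rootsOfUnity f K := by
    ext ζ
    rw [MonoidHom.mem_ker, mem_rootsOfUnity, hf]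
    simp
  let e2 : H ≃* rootsOfUnity f K :=
    e1.trans ((C.equiv (T := Kˣ) q).trans (MulEquiv.subgroupCongr hker))
  have hcyc : IsCyclic H := isCyclic_of_injective e2.toMonoidHom e2.injective
  refine ⟨H, hcyc, ?_, ?_⟩
  · rw [Nat.card_congr e2.toEquiv, HasEnoughRootsOfUnity.natCard_rootsOfUnity]
  apply le_antisymm
  · intro y hy
    rw [Subgroup.mem_centralizer_iff] at hy
    set g := x⁻¹ * ι y * x with hg
    have hgG : g ∈ D.group K := mul_mem (mul_mem (inv_mem hx) (hιG y).1) hx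
    have hgc : ∀ z ∈ (A : Set (Fin D.rank → Kˣ)), Tz X z * g * (Tz X z)⁻¹ = g := by
      intro z hz
      obtain ⟨y', hy'⟩ := hlift z hz
      have h3 := hy y' (Subgroup.mem_comap.2 (by rw [hy']; exact ⟨z, hz, rfl⟩))
      have h4 := congrArg ι h3
      rw [map_mul, map_mul, hy', hφ] at h4
      have h5 : Tz X z * g = g * Tz X z := by
        rw [hg]
        calc Tz X z * (x⁻¹ * ι y * x) = x⁻¹ * (x * Tz X z * x⁻¹ * ι y) * x := by group
          _ = x⁻¹ * (ι y * (x * Tz X z * x⁻¹)) * x := by rw [h4]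
          _ = _ := by group
      rw [h5]; group
    obtain ⟨ζ, hζ⟩ := HasEnoughRootsOfUnity.exists_primitiveRoot K f
    obtain ⟨ζ, rfl⟩ : ∃ u : Kˣ, (u : K) = ζ := ⟨hζ.isUnit (NeZero.ne f) |>.unit, rfl⟩
    have hζ' : IsPrimitiveRoot ζ f := IsPrimitiveRoot.coe_units_iff.1 hζ
    have hζA : mkz P q ζ ∈ A := C.mkz_mem (by
      rw [hf, zpow_natCast]; exact hζ'.pow_eq_one)
    have hζr : ∀ r, ∃ z ∈ (A : Set (Fin D.rank → Kˣ)), E z (v X r) ≠ 1 := by
      intro r
      refine ⟨_, hζA, ?_⟩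
      rw [E_mkz]
      intro h
      exact h1 r ((hζ'.zpow_eq_one_iff_dvd _).1 h)
    obtain ⟨u, hu, huz⟩ := cent R Z (fun z _ => hT z) hζr hgG hgc
    have hgσ : n * σ g * n⁻¹ = g := by
      rw [hg, map_mul, map_mul, map_inv, (hιG y).2, hσx]; group
    have hcomm : w * (τ * u * τ⁻¹) * w⁻¹ = u := by
      have h3 := (hn.mul (S.rep _ _ hu)).mul hn.inv
      rw [hgσ] at h3
      exact h3.unique hu
    have hcomm' : ∀ r, u (w (τ r)) = w (τ (u r)) := by
      intro r
      have h3 := congrArg (fun p : Equiv.Perm (Fin D.nroots) => p (w (τ r))) hcomm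
      simp only [Equiv.Perm.mul_apply] at h3
      rw [← h3]
      congr 2
      simp
    have hit : ∀ i : ℕ, ∃ r, M^[i] (v X b) = v X r ∧ M^[i] (v X (u b)) = v X (u r) := by
      intro i
      induction i with
      | zero => exact ⟨b, rfl, rfl⟩
      | succ i ih =>
        obtain ⟨r, h3, h4⟩ := ih
        refine ⟨w (τ r), ?_, ?_⟩
        · rw [Function.iterate_succ_apply', h3, hM]
        · rw [Function.iterate_succ_apply', h4, hcomm', hM]
    have hact : ∀ s, v X (u s) = ∑ i, ac P (v X s) i • (M^[(i : ℕ)] (v X (u b))) := by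
      intro s
      rw [lin_v X hu.2.1]
      conv_lhs => rw [C.decomp (v X s), map_sum]
      refine Finset.sum_congr rfl fun i _ => ?_
      rw [map_zsmul]
      obtain ⟨r, h5, h6⟩ := hit i
      rw [h5, ← lin_v X hu.2.1, h6]
    have hub : u b = b := by
      by_contra hne
      have h3 := huz _ hζA b
      rw [E_mkz, E_mkz, C.gv_b, zpow_one] at h3
      have h4 : (f : ℤ) ∣ gv P q (v X (u b)) - 1 := by
        rw [← hζ'.zpow_eq_one_iff_dvd, zpow_sub, h3, zpow_one, mul_inv_cancel]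
      obtain ⟨s, hs⟩ := h2 (u b) hne h4
      exact hs (u s) (hact s)
    have hu1 : u = 1 := by
      ext r
      have h3 : v X (u r) = v X r := by
        rw [hact, hub, ← C.decomp]
      rw [(coord X).co_inj h3]
      rfl
    rw [hu1] at hu
    have hgH : g ∈ Hs R := by
      rw [← diagonalSubgroup_eq R X]; exact (chevSys R X).mem_H_of_rep_one hu
    obtain ⟨z, hz⟩ := Hs_le_Tz R X hgH
    have hzA : z ∈ A := by
      rw [hz] at hgσ
      exact (S.fix_iff hT hn hM z).1 hgσ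
    refine Subgroup.mem_comap.2 ⟨z, hzA, ?_⟩
    rw [hφ, ← hz, hg]; group
  · intro y hy
    rw [Subgroup.mem_centralizer_iff]
    intro y' hy'
    haveI := hcyc
    have : (⟨y', hy'⟩ : H) * ⟨y, hy⟩ = ⟨y, hy⟩ * ⟨y', hy'⟩ := by
      letI := IsCyclic.commGroup (α := H)
      exact mul_comm _ _
    exact congrArg Subtype.val this

end H22.TorusCore
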