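import Cfsg.Agent.Lib.H22.TorusCore

/-!
# Frobenius fixed points; certificates for cyclic tori
-/

set_option autoImplicit false
set_option linter.style.haveILetI false
set_option linter.unusedSectionVars false
set_option linter.unusedSimpArgs false

namespace H22.TorusFix

open H22.RGD H22.Coord H22.RCCheck H22.RCComb H22.ChevTri H22.ChevRel H22.ChevSys H22.ChevMain
open H22.ChevStd H22.ChevUni H22.ChevTorus H22.Lang H22.LangChev H22.TorusLat H22.TorusCore
open Cfsg.Lie (ChevalleyDatum)
open scoped MatrixGroups Matrix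

section Frob

variable {D : ChevalleyDatum} {K : Type*} [Field K] (R : Rel D K) {X : RCX D}

theorem E_pow {l : ℕ} {T : Type*} [CommGroup T] (z : Fin l → T) (n : ℕ) (u : Fin l → ℤ) :
    E (fun j => z j ^ n) u = (E z u) ^ n := by
  unfold E
  rw [← Finset.prod_pow]
  refine Finset.prod_congr rfl fun j _ => ?_
  beta_reduce
  rw [← zpow_natCast, ← zpow_natCast, ← zpow_mul, ← zpow_mul, mul_comm]

theorem frob_Tz (σ : K →+* K) (q : ℕ) (hσ : ∀ x, σ x = x ^ q) (z : Fin D.rank → Kˣ) :
    Matrix.GeneralLinearGroup.map σ (Tz X z) = Tz X (fun j => z j ^ q) := by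
  apply Units.ext
  change (((Tz X z : GL D.Idx K) : Matrix D.Idx D.Idx K).map σ) = _
  rw [Tz_val, Tz_val]
  ext i j
  rw [Matrix.map_apply]
  by_cases h : i = j
  · subst h
    rw [Matrix.diagonal_apply_eq, Matrix.diagonal_apply_eq]
    rcases i with i | i
    · simp
    · simp only [Sum.elim_inr]
      rw [E_pow, hσ]; simp
  · rw [Matrix.diagonal_apply_ne _ h, Matrix.diagonal_apply_ne _ h, map_zero]

/-- The Frobenius map is a Steinberg endomorphism inducing the identity on the roots. -/
theorem stein_frob [IsAlgClosed K] (Z : Lex X.rc) (σ : K →+* K) (q : ℕ) (hq : 2 ≤ q)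
    (hσ : ∀ x, σ x = x ^ q) :
    Stein R X 1 q (Matrix.GeneralLinearGroup.map σ) where
  G := fun _ h => H22.ChevField.glMap_group σ h
  torus := fun z => ⟨fun j => z j ^ q, frob_Tz σ q hσ z, fun r => E_pow z q _⟩
  rep := by
    intro m w hm
    obtain ⟨L, rfl⟩ := (comb X).exists_word hm.2.1
    obtain ⟨h, hh, rfl⟩ := (chevSys R X).rep_mod_H ((chevSys R X).rep_nw L) hm
    rw [map_mul]
    have h1 : Matrix.GeneralLinearGroup.map σ ((chevSys R X).nw L) = (chevSys R X).nw L :=
      H47.ChevSub.Fr_L R σ (H47.ChevSub.nw_mem_L R X σ L)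
    rw [h1]
    have h2 := ((chevSys R X).rep_nw L).mul
      ((chevSys R X).rep_H (H47.ChevSub.Fr_H R X σ hh))
    simpa using h2
  lang := fun _ hg => H22.LangChev.lang R Z σ q hq hσ hg

variable {F : Type*} [Field F] [Fintype F] [Algebra F K]

theorem exists_of_pow_card {x : K} (hx : x ^ Fintype.card F = x) :
    ∃ y : F, algebraMap F K y = x := by
  classical
  set q := Fintype.card F with hq
  have hq1 : 1 < q := Fintype.one_lt_card
  have hne : (Polynomial.X ^ q - Polynomial.X : Polynomial K) ≠ 0 :=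
    FiniteField.X_pow_card_sub_X_ne_zero K hq1
  by_contra hcon
  push Not at hcon
  let S : Finset K := insert x (Finset.univ.image (algebraMap F K))
  have hS : S.card = q + 1 := by
    rw [Finset.card_insert_of_notMem, Finset.card_image_of_injective _ (algebraMap F K).injective,
      Finset.card_univ]
    simp only [Finset.mem_image, Finset.mem_univ, true_and, not_exists]
    exact hcon
  have hsub : S.val ≤ (Polynomial.X ^ q - Polynomial.X : Polynomial K).roots := by
    rw [Multiset.le_iff_subset S.nodup]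
    intro y hy
    rw [Polynomial.mem_roots hne, Polynomial.IsRoot.def]
    simp only [Polynomial.eval_sub, Polynomial.eval_pow, Polynomial.eval_X]
    rw [Finset.mem_val, Finset.mem_insert] at hy
    rcases hy with rfl | hy
    · rw [hx, sub_self]
    · obtain ⟨y, -, rfl⟩ := Finset.mem_image.1 hy
      rw [← map_pow, FiniteField.pow_card, sub_self]
  have h1 := Multiset.card_le_card hsub
  have h2 := (Polynomial.X ^ q - Polynomial.X : Polynomial K).card_roots' 
  rw [FiniteField.X_pow_card_sub_X_natDegree_eq K hq1] at h2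
  have h3 : Multiset.card S.val = q + 1 := hS
  omega

/-- the embedding of the finite group -/
def emb (D : ChevalleyDatum) (F K : Type*) [Field F] [Field K] [Algebra F K] :
    D.group F →* GL D.Idx K :=
  (Matrix.GeneralLinearGroup.map (algebraMap F K)).comp (D.group F).subtype

theorem emb_injective : Function.Injective (emb D F K) := by
  intro a b h
  apply Subtype.ext
  apply Units.ext
  ext i j
  have h1 := congrArg (fun g : GL D.Idx K => (g : Matrix D.Idx D.Idx K) i j) h
  exact (algebraMap F K).injective h1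

theorem emb_fix (σ : K →+* K) (hσ : ∀ x, σ x = x ^ Fintype.card F) (y : D.group F) :
    emb D F K y ∈ D.group K ∧ Matrix.GeneralLinearGroup.map σ (emb D F K y) = emb D F K y := by
  refine ⟨H22.ChevField.glMap_group _ y.2, ?_⟩
  apply Units.ext
  ext i j
  change σ (algebraMap F K _) = algebraMap F K _
  rw [hσ, ← map_pow, FiniteField.pow_card]

/-- the group generated by the root elements with fixed parameters is the finite group -/
theorem L_le (R' : Rel D F) (σ : K →+* K) (hσ : ∀ x, σ x = x ^ Fintype.card F) {g : GL D.Idx K}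
    (hg : g ∈ H47.ChevSub.L R σ) : ∃ y, emb D F K y = g := by
  unfold H47.ChevSub.L at hg
  induction hg using Subgroup.closure_induction with
  | mem x hx =>
    obtain ⟨s, t, ht, rfl⟩ := hx
    rw [hσ] at ht
    obtain ⟨t, rfl⟩ := exists_of_pow_card ht
    refine ⟨⟨xg R' s t, xg_mem_group' R' s t⟩, ?_⟩
    exact Units.ext (H22.ChevField.x_map (algebraMap F K) s t)
  | one => exact ⟨1, map_one _⟩
  | mul x y _ _ hx hy =>
    obtain ⟨a, rfl⟩ := hx
    obtain ⟨b, rfl⟩ := hy
    exact ⟨a * b, map_mul _ _ _⟩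
  | inv x _ hx =>
    obtain ⟨a, rfl⟩ := hx
    exact ⟨a⁻¹, map_inv _ _⟩

/-- simply connected case: fixed torus elements are in the finite group -/
theorem torus_mem_L (hk : (chi D K).ker = ⊥) (σ : K →+* K) (q : ℕ) (hσ : ∀ x, σ x = x ^ q)
    {h : GL D.Idx K} (hh : h ∈ Hs R) (hf : Matrix.GeneralLinearGroup.map σ h = h) (X : RCX D) :
    h ∈ H47.ChevSub.L R σ := by
  rw [← diagonalSubgroup_eq R X, diagonalSubgroup_eq_range R X] at hh
  obtain ⟨c, rfl⟩ := hh
  rw [MonoidHom.comp_apply] at hf ⊢
  have h1 : Matrix.GeneralLinearGroup.map σ (dg D K (chi D K c)) =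
      dg D K (chi D K (fun i => c i ^ q)) := by
    have h2 : dg D K (chi D K c) = Tz X (fun j => ∏ i, c i ^ X.rc.A i j) := by
      unfold Tz
      rw [MonoidHom.comp_apply]
      congr 1
      funext s
      exact chi_eq X c s
    have h3 : dg D K (chi D K (fun i => c i ^ q)) =
        Tz X (fun j => ∏ i, (c i ^ q) ^ X.rc.A i j) := by
      unfold Tz
      rw [MonoidHom.comp_apply]
      congr 1
      funext s
      exact chi_eq X _ s
    rw [h2, h3, frob_Tz σ q hσ]
    congr 1
    funext j
    rw [← Finset.prod_pow]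
    refine Finset.prod_congr rfl fun i _ => ?_
    rw [← zpow_natCast, ← zpow_natCast, ← zpow_mul, ← zpow_mul, mul_comm]
  rw [h1] at hf
  have h4 : chi D K (fun i => c i ^ q) = chi D K c := dg_injective hf
  have h5 : (fun i => c i ^ q) = c := by
    have : Function.Injective (chi D K) := (MonoidHom.ker_eq_bot_iff _).1 hk
    exact this h4
  have h6 : dg D K (chi D K c) = prodH R (fun i => if h : i < D.rank then (c ⟨i, h⟩ : K) else 1) := by
    apply Units.ext
    rw [prodH_val R _ (fun i hi => by simp [hi]), dg_val]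
    congr 1
    funext x
    rcases x with x | x
    · simp
    · simp only [Sum.elim_inr, chi, MonoidHom.coe_mk, OneHom.coe_mk, Units.coe_prod,
        Units.val_zpow_eq_zpow_val]
      rw [Finset.prod_range]
      refine Finset.prod_congr rfl fun i _ => ?_
      simp
  rw [h6]
  unfold prodH
  apply Subgroup.list_prod_mem
  intro x hx
  simp only [List.mem_map, List.mem_range] at hx
  obtain ⟨i, hi, rfl⟩ := hx
  have hci : σ (c ⟨i, hi⟩ : K) = c ⟨i, hi⟩ := by
    rw [hσ, ← Units.val_pow_eq_pow_val]
    exact congrArg Units.val (congrFun h5 ⟨i, hi⟩)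
  simp only [hi, dif_pos]
  have hng : ∀ t : K, σ t = t → ng R (D.simple i) t ∈ H47.ChevSub.L R σ := by
    intro t ht
    rw [ng_def]
    refine mul_mem (mul_mem (H47.ChevSub.xg_mem_L R σ ht) (H47.ChevSub.xg_mem_L R σ ?_))
      (H47.ChevSub.xg_mem_L R σ ht)
    rw [map_neg, map_inv₀, ht]
  unfold hs
  rw [hg_def]
  exact mul_mem (hng _ hci) (hng _ (by rw [map_neg, map_one]))

include R in
/-- Frobenius fixed points of a group of simply connected type. -/
theorem fixed (R' : Rel D F) (Z : Lex X.rc) (hk : (chi D K).ker = ⊥) (σ : K →+* K)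
    (hσ : ∀ x, σ x = x ^ Fintype.card F) {g : GL D.Idx K} (hg : g ∈ D.group K)
    (hf : Matrix.GeneralLinearGroup.map σ g = g) : ∃ y, emb D F K y = g := by
  obtain ⟨l, hl, h, hh, hfh, rfl⟩ := H47.ChevSub.fixed_decomp R σ Z hg hf
  exact L_le R R' σ hσ (mul_mem hl (torus_mem_L R hk σ _ hσ hh hfh X))

end Frob

/-! ### certificates -/

section Cert

variable {l : ℕ}

/-- reflection on coordinate vectors -/
def rf (A : Fin l → Fin l → ℤ) (i : Fin l) : (Fin l → ℤ) →+ (Fin l → ℤ) where
  toFun u := fun j => u j - if j = i then ∑ k, A i k * u k else 0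
  map_zero' := by funext j; simp
  map_add' a b := by
    funext j
    by_cases h : j = i
    · simp only [h, if_true, Pi.add_apply, mul_add, Finset.sum_add_distrib]; ring
    · simp [h]

theorem rf_apply (A : Fin l → Fin l → ℤ) (i : Fin l) (u : Fin l → ℤ) (j : Fin l) :
    rf A i u j = u j - if j = i then ∑ k, A i k * u k else 0 := rfl

/-- action of a word -/
def wM (A : Fin l → Fin l → ℤ) : List (Fin l) → ((Fin l → ℤ) →+ (Fin l → ℤ))
  | [] => AddMonoidHom.id _
  | i :: L => (rf A i).comp (wM A L)

/-- Table of intermediate vectors. `Lr` is the reversed word. -/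
theorem wM_steps (A : Fin l → Fin l → ℤ) (L : List (Fin l)) (bt : ℕ → Fin l → ℤ) (s0 : ℕ)
    (h : ∀ s (hs : s < L.length), ∀ j,
      bt (s0 + s + 1) j = rf A (L.reverse[s]'(by simpa using hs)) (bt (s0 + s)) j) :
    wM A L (bt s0) = bt (s0 + L.length) := by
  induction L with
  | nil => rfl
  | cons i L ih =>
    have h1 : wM A L (bt s0) = bt (s0 + L.length) := by
      apply ih
      intro s hs j
      rw [h s (by simp; omega) j]
      simp only [List.reverse_cons]
      rw [List.getElem_append_left]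
    change rf A i (wM A L (bt s0)) = _
    rw [h1]
    funext j
    have h2 := h L.length (by simp) j
    simp only [List.reverse_cons] at h2
    rw [List.getElem_append_right (by simp)] at h2
    simp only [List.length_reverse, Nat.sub_self, List.getElem_cons_zero] at h2
    rw [← h2]
    simp [add_assoc]

theorem wM_iterate (A : Fin l → Fin l → ℤ) (L : List (Fin l)) (bt : ℕ → Fin l → ℤ) (N : ℕ)
    (h : ∀ i < N, ∀ s (hs : s < L.length), ∀ j, bt (i * L.length + s + 1) j =
      rf A (L.reverse[s]'(by simpa using hs)) (bt (i * L.length + s)) j) :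
    ∀ i ≤ N, (wM A L)^[i] (bt 0) = bt (i * L.length) := by
  intro i
  induction i with
  | zero => intro _; simp
  | succ i ih =>
    intro hi
    rw [Function.iterate_succ_apply', ih (by omega),
      wM_steps A L bt (i * L.length) (h i (by omega))]
    congr 1
    ring

/-- assembling a certificate -/
theorem cyc_of (A : Fin l → Fin l → ℤ) (L : List (Fin l)) (bt : ℕ → Fin l → ℤ)
    (P : Fin l → Fin l → ℤ) (c : Fin l → ℤ) (hl : 0 < l)
    (h : ∀ i < l, ∀ s (hs : s < L.length), ∀ j, bt (i * L.length + s + 1) j =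
      rf A (L.reverse[s]'(by simpa using hs)) (bt (i * L.length + s)) j)
    (hinv : ∀ j k, ∑ i : Fin l, P i j * bt (i * L.length) k = if j = k then 1 else 0)
    (hrel : ∀ k, bt (l * L.length) k = - ∑ i : Fin l, c i * bt (i * L.length) k) :
    Cyc (wM A L) (bt 0) P c where
  pos := hl
  inv := by
    intro j k
    rw [← hinv j k]
    refine Finset.sum_congr rfl fun i _ => ?_
    rw [wM_iterate A L bt l h i i.2.le]
  rel := by
    intro k
    rw [wM_iterate A L bt l h l le_rfl, hrel]
    congr 1
    refine Finset.sum_congr rfl fun i _ => ?_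
    rw [wM_iterate A L bt l h i i.2.le]

variable {D : ChevalleyDatum} {X : RCX D}

theorem v_word (L : List (Fin D.rank)) (r : Fin D.nroots) :
    v X ((comb X).w L r) = wM (coord X).A L (v X r) := by
  induction L with
  | nil => rfl
  | cons i L ih =>
    rw [RootComb.w_cons, Equiv.Perm.mul_apply]
    change _ = rf (coord X).A i (wM (coord X).A L (v X r))
    rw [← ih]
    funext j
    rw [rf_apply]
    exact (coord X).co_refl i _ j

end Cert

/-! ### size estimates -/

section Size

variable {l : ℕ}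

theorem abs_sum_lt (q M : ℤ) (hM : 0 ≤ M) (hq : M + 1 ≤ q) : ∀ (l : ℕ) (a : Fin l → ℤ),
    (∀ i, |a i| ≤ M) → |∑ i, a i * q ^ (i : ℕ)| ≤ q ^ l - 1 := by
  intro l
  induction l with
  | zero => intro a _; simp
  | succ l ih =>
    intro a ha
    have hq0 : 0 < q := by omega
    rw [Fin.sum_univ_castSucc]
    have h1 := ih (fun i => a i.castSucc) (fun i => ha _)
    have h2 : |a (Fin.last l) * q ^ ((Fin.last l : Fin (l + 1)) : ℕ)| ≤ M * q ^ l := by
      rw [abs_mul, Fin.val_last, abs_of_nonneg (by positivity : (0 : ℤ) ≤ q ^ l)]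
      exact mul_le_mul_of_nonneg_right (ha _) (by positivity)
    refine (abs_add_le _ _).trans ?_
    have h3 : (q : ℤ) ^ (l + 1) = q * q ^ l := by ring
    have h4 : (M + 1) * q ^ l ≤ q * q ^ l :=
      mul_le_mul_of_nonneg_right hq (by positivity)
    simp only [Fin.val_castSucc] at *
    rw [h3]
    nlinarith

theorem sum_ne_zero (q M : ℤ) (hM : 0 ≤ M) (hq : M + 1 ≤ q) : ∀ (l : ℕ) (a : Fin l → ℤ),
    (∀ i, |a i| ≤ M) → ∑ i, a i * q ^ (i : ℕ) = 0 → a = 0 := by
  intro l
  induction l with
  | zero => intro a _ _; funext i; exact i.elim0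
  | succ l ih =>
    intro a ha h0
    have hq0 : 0 < q := by omega
    rw [Fin.sum_univ_castSucc] at h0
    have h1 := abs_sum_lt q M hM hq l (fun i => a i.castSucc) (fun i => ha _)
    simp only [Fin.val_castSucc, Fin.val_last] at *
    have hql : (0 : ℤ) < q ^ l := by positivity
    have h2 : a (Fin.last l) = 0 := by
      by_contra hne
      have h3 : q ^ l ≤ |a (Fin.last l) * q ^ l| := by
        rw [abs_mul, abs_of_pos hql]
        have : 1 ≤ |a (Fin.last l)| := Int.one_le_abs hne
        nlinarith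
      have h4 : a (Fin.last l) * q ^ l = - ∑ i : Fin l, a i.castSucc * q ^ (i : ℕ) := by linarith
      rw [h4, abs_neg] at h3
      omega
    rw [h2, zero_mul, add_zero] at h0
    have h5 := ih (fun i => a i.castSucc) (fun i => ha _) h0
    funext i
    refine Fin.lastCases h2 (fun j => ?_) i
    exact congrFun h5 j

/-- no divisibility for large `q` -/
theorem not_dvd_of_large {f q M : ℤ} (hM : 0 ≤ M) (hq : M + 1 ≤ q) {l : ℕ} {a : Fin l → ℤ}
    (ha : ∀ i, |a i| ≤ M) (hne : a ≠ 0) (hf : q ^ l ≤ f) :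
    ¬ f ∣ ∑ i, a i * q ^ (i : ℕ) := by
  intro h
  have h1 := abs_sum_lt q M hM hq l a ha
  have h2 := Int.eq_zero_of_abs_lt_dvd h (by omega)
  exact hne (sum_ne_zero q M hM hq l a ha h2)

end Size

/-! ### assembly, simply connected types -/

section Main

variable {D : ChevalleyDatum} {X : RCX D}

/-- the two divisibility conditions -/
def Div (X : RCX D) (L : List (Fin D.rank)) (P : Fin D.rank → Fin D.rank → ℤ)
    (b : Fin D.nroots) (f q : ℤ) : Prop :=
  (∀ r, ¬ f ∣ gv P q (v X r)) ∧
  (∀ r, r ≠ b → f ∣ gv P q (v X r) - 1 →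
      ∃ s, ∀ s', v X s' ≠ ∑ i, ac P (v X s) i • ((wM (coord X).A L)^[(i : ℕ)] (v X r)))

theorem div_of_large {L : List (Fin D.rank)} {P : Fin D.rank → Fin D.rank → ℤ}
    {c : Fin D.rank → ℤ} {b : Fin D.nroots} (C : Cyc (wM (coord X).A L) (v X b) P c)
    {M q : ℤ} (hM : 0 ≤ M) (ha : ∀ r i, |ac P (v X r) i| ≤ M) (hq : M + 2 ≤ q)
    (hf : q ^ D.rank ≤ fv c q) : Div X L P b (fv c q) q := by
  constructor
  · intro r
    refine not_dvd_of_large hM (by omega) (ha r) ?_ hf
    intro h0
    obtain ⟨j, hj⟩ := (coord X).ne_zero r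
    apply hj
    have h1 := congrFun (C.decomp (v X r)) j
    rw [Finset.sum_apply] at h1
    change (coord X).co r j = _ at h1
    rw [h1]
    refine Finset.sum_eq_zero fun i _ => ?_
    have h2 : ac P (v X r) i = 0 := congrFun h0 i
    rw [h2]; simp
  · intro r hr h
    exfalso
    have h1 : gv P q (v X r) - 1 = ∑ i, (ac P (v X r) i - ac P (v X b) i) * q ^ (i : ℕ) := by
      rw [← C.gv_b q]
      unfold gv
      rw [← Finset.sum_sub_distrib]
      exact Finset.sum_congr rfl fun i _ => by ring
    rw [h1] at h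
    refine not_dvd_of_large (M := M + 1) (by omega) (by omega) ?_ ?_ hf h
    · intro i
      have h2 : ac P (v X b) i = if (⟨0, C.pos⟩ : Fin D.rank) = i then 1 else 0 :=
        C.ac_iterate ⟨0, C.pos⟩ i
      have h3 := ha r i
      rw [abs_le] at h3 ⊢
      rw [h2]
      split_ifs <;> omega
    · intro h0
      apply hr
      apply (coord X).co_inj
      have h4 : ∀ i, ac P (v X r) i = ac P (v X b) i := fun i => by
        have := congrFun h0 i
        simp only [Pi.zero_apply] at this
        omega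
      change v X r = v X b
      exact (C.decomp (v X r)).trans ((Finset.sum_congr rfl fun i _ => by rw [h4]).trans
        (C.decomp (v X b)).symm)

theorem fv_cast {l : ℕ} (hl : 0 < l) (c : Fin l → ℤ) (hc : c ⟨0, hl⟩ = 1 ∨ c ⟨0, hl⟩ = -1)
    {K : Type*} [Field K] {q : ℕ} (hq : (q : K) = 0) : ((fv c (q : ℤ) : ℤ) : K) ≠ 0 := by
  unfold fv
  push_cast
  rw [hq, zero_pow hl.ne', zero_add, Finset.sum_eq_single (⟨0, hl⟩ : Fin l)]
  · rcases hc with h | h <;> rw [h] <;> simp
  · intro i _ hi
    have : (i : ℕ) ≠ 0 := fun h => hi (Fin.ext h)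
    rw [zero_pow this, mul_zero]
  · simp

/-- Cyclic self-centralising tori in groups of simply connected type. -/
theorem main_sc {F : Type*} [Field F] [Fintype F] (q : ℕ) (hq : Fintype.card F = q)
    (hD : D ∈ [Cfsg.Lie.chevG2, Cfsg.Lie.chevB2, Cfsg.Lie.chevD4,
      Cfsg.Lie.chevF4, Cfsg.Lie.chevE6, Cfsg.Lie.chevE7, Cfsg.Lie.chevE8])
    (Z : Lex X.rc) (hk : (chi D (AlgebraicClosure F)).ker = ⊥)
    (B : Fin D.rank → Fin D.rank → ℤ)
    (hB : ∀ k j : Fin D.rank, ∑ i, B k i * X.rc.A i j = if k = j then ((1 : ℕ) : ℤ) else 0)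
    {L : List (Fin D.rank)} {P : Fin D.rank → Fin D.rank → ℤ} {c : Fin D.rank → ℤ}
    {b : Fin D.nroots} (C : Cyc (wM (coord X).A L) (v X b) P c)
    (hc : c ⟨0, C.pos⟩ = 1 ∨ c ⟨0, C.pos⟩ = -1) (f : ℕ) (hf : fv c q = f)
    (hdiv : Div X L P b (fv c q) q) :
    ∃ H : Subgroup (D.group F), IsCyclic H ∧ Nat.card H = f ∧
      Subgroup.centralizer (H : Set (D.group F)) = H := by
  subst hq
  have RF := H22.ChevAll.rel D hD F
  have RK := H22.ChevAll.rel D hD (AlgebraicClosure F)
  let σ : AlgebraicClosure F →+* AlgebraicClosure F :=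
    (FiniteField.frobeniusAlgHom F (AlgebraicClosure F)).toRingHom
  have hσ : ∀ x, σ x = x ^ Fintype.card F := fun x => rfl
  have hq0 : ((Fintype.card F : ℕ) : AlgebraicClosure F) = 0 := by
    have h := congrArg (algebraMap F (AlgebraicClosure F)) (FiniteField.cast_card_eq_zero F)
    rwa [map_natCast, map_zero] at h
  have hfK : (f : AlgebraicClosure F) ≠ 0 := by
    have h := fv_cast C.pos c hc hq0
    rw [hf] at h
    simpa using h
  have S := stein_frob RK Z σ (Fintype.card F) Fintype.one_lt_card hσ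
  have h1 := hdiv.1
  have h2 := hdiv.2
  rw [hf] at h1 h2
  exact cyclic_torus Z S (fun z => Tz_mem RK X B 1 Nat.one_pos hB z) ((comb X).w_mem L)
    (M := wM (coord X).A L) (fun r => v_word L r) C hf hfK (emb D F (AlgebraicClosure F))
    emb_injective (emb_fix σ hσ) (fun g hg hg' => fixed RK RF Z hk σ hσ hg hg') h1 h2

end Main

end H22.TorusFix
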