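import Mathlib

/-!
# Characters of a lattice twisted by a cyclic automorphism

`T` an abelian group; `E z v` is the value at `v ∈ ℤ^l` of the character with values `z j` at
the basis vectors. For an endomorphism `M` of `ℤ^l` such that `ℤ^l` is a cyclic
`ℤ[M]`-module generated by `b` (certificate `Cyc`), the group of all characters `χ` with
`χ (M v) = χ v ^ q` is isomorphic to the group of all `ζ` with `ζ ^ f = 1`, `f` the value at
`q` of the characteristic polynomial.
-/

set_option autoImplicit false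
set_option linter.unusedSectionVars false

namespace H22.TorusLat

open Finset

section E

variable {l : ℕ} {T : Type*} [CommGroup T]

/-- evaluation of the character with values `z j` at the basis vectors -/
def E (z : Fin l → T) (v : Fin l → ℤ) : T := ∏ j, z j ^ v j

@[simp] theorem E_zero (z : Fin l → T) : E z 0 = 1 := by simp [E]

theorem E_add (z : Fin l → T) (v w : Fin l → ℤ) : E z (v + w) = E z v * E z w := by
  simp [E, zpow_add, prod_mul_distrib]

theorem E_neg (z : Fin l → T) (v : Fin l → ℤ) : E z (-v) = (E z v)⁻¹ := by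
  simp [E, prod_inv_distrib]

theorem E_smul (z : Fin l → T) (a : ℤ) (v : Fin l → ℤ) : E z (a • v) = (E z v) ^ a := by
  unfold E
  rw [← prod_zpow]
  refine prod_congr rfl fun j _ => ?_
  rw [Pi.smul_apply, smul_eq_mul, mul_comm, zpow_mul]

theorem E_sum {ι : Type*} (z : Fin l → T) (s : Finset ι) (f : ι → Fin l → ℤ) :
    E z (∑ i ∈ s, f i) = ∏ i ∈ s, E z (f i) := by
  classical
  induction s using Finset.induction_on with
  | empty => simp
  | insert a s ha ih => rw [sum_insert ha, prod_insert ha, E_add, ih]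

theorem E_single (z : Fin l → T) (j : Fin l) : E z (Pi.single j 1) = z j := by
  unfold E
  rw [prod_eq_single j]
  · simp
  · intro k _ hk; rw [Pi.single_eq_of_ne hk, zpow_zero]
  · simp

theorem eq_sum_single (v : Fin l → ℤ) : v = ∑ j, v j • (Pi.single j 1 : Fin l → ℤ) := by
  ext k
  rw [Finset.sum_apply]
  simp [Pi.single_apply]

theorem E_map (z : Fin l → T) (M : (Fin l → ℤ) →+ (Fin l → ℤ)) (v : Fin l → ℤ) :
    E z (M v) = ∏ j, (E z (M (Pi.single j 1))) ^ v j := by
  conv_lhs => rw [eq_sum_single v, map_sum]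
  rw [E_sum]
  refine prod_congr rfl fun j _ => ?_
  rw [map_zsmul, E_smul]

theorem E_mul (z z' : Fin l → T) (v : Fin l → ℤ) : E (z * z') v = E z v * E z' v := by
  simp [E, mul_zpow, prod_mul_distrib]

theorem E_one (v : Fin l → ℤ) : E (1 : Fin l → T) v = 1 := by simp [E]

theorem E_inv (z : Fin l → T) (v : Fin l → ℤ) : E z⁻¹ v = (E z v)⁻¹ := by
  simp [E, prod_inv_distrib]

/-- the character group twisted by `M` and `q` -/
def tw (T : Type*) [CommGroup T] (M : (Fin l → ℤ) →+ (Fin l → ℤ)) (q : ℕ) :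
    Subgroup (Fin l → T) where
  carrier := {z | ∀ j, E z (M (Pi.single j 1)) = z j ^ q}
  one_mem' := fun j => by simp [E_one]
  mul_mem' := fun {a b} ha hb j => by
    rw [E_mul, ha j, hb j, Pi.mul_apply, mul_pow]
  inv_mem' := fun {a} ha j => by
    rw [E_inv, ha j, Pi.inv_apply, inv_pow]

theorem mem_tw {M : (Fin l → ℤ) →+ (Fin l → ℤ)} {q : ℕ} {z : Fin l → T} :
    z ∈ tw T M q ↔ ∀ j, E z (M (Pi.single j 1)) = z j ^ q := Iff.rfl

theorem tw_map {M : (Fin l → ℤ) →+ (Fin l → ℤ)} {q : ℕ} {z : Fin l → T} (hz : z ∈ tw T M q)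
    (v : Fin l → ℤ) : E z (M v) = (E z v) ^ q := by
  rw [E_map]
  unfold E
  rw [← prod_pow]
  refine prod_congr rfl fun j _ => ?_
  rw [show (∏ j_1, z j_1 ^ M (Pi.single j 1) j_1) = E z (M (Pi.single j 1)) from rfl, hz j,
    ← zpow_natCast, ← zpow_natCast, ← zpow_mul, ← zpow_mul, mul_comm]

theorem tw_iterate {M : (Fin l → ℤ) →+ (Fin l → ℤ)} {q : ℕ} {z : Fin l → T}
    (hz : z ∈ tw T M q) (v : Fin l → ℤ) (i : ℕ) : E z (M^[i] v) = (E z v) ^ (q ^ i) := by
  induction i with
  | zero => simp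
  | succ i ih => rw [Function.iterate_succ_apply', tw_map hz, ih, ← pow_mul, pow_succ]

end E

/-- Certificate: `ℤ^l` is generated by `b` over `ℤ[M]`, with inverse base change matrix `P`,
and `M^l b = - ∑ c i M^i b`. -/
structure Cyc {l : ℕ} (M : (Fin l → ℤ) →+ (Fin l → ℤ)) (b : Fin l → ℤ)
    (P : Fin l → Fin l → ℤ) (c : Fin l → ℤ) : Prop where
  pos : 0 < l
  inv : ∀ j k, ∑ i, P i j * (M^[(i : ℕ)] b) k = if j = k then 1 else 0
  rel : ∀ k, (M^[l] b) k = - ∑ i, c i * (M^[(i : ℕ)] b) k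

section Cyc

variable {l : ℕ} {M : (Fin l → ℤ) →+ (Fin l → ℤ)} {b : Fin l → ℤ}
    {P : Fin l → Fin l → ℤ} {c : Fin l → ℤ}

/-- coordinates in the basis `M^i b` -/
def ac (P : Fin l → Fin l → ℤ) (v : Fin l → ℤ) (i : Fin l) : ℤ := ∑ j, P i j * v j

/-- `v = g_v(M) b`, value of `g_v` at `q` -/
def gv (P : Fin l → Fin l → ℤ) (q : ℤ) (v : Fin l → ℤ) : ℤ := ∑ i, ac P v i * q ^ (i : ℕ)

/-- value of the characteristic polynomial -/
def fv (c : Fin l → ℤ) (q : ℤ) : ℤ := q ^ l + ∑ i, c i * q ^ (i : ℕ)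

theorem ac_add (v w : Fin l → ℤ) (i : Fin l) : ac P (v + w) i = ac P v i + ac P w i := by
  simp [ac, mul_add, sum_add_distrib]

theorem ac_smul (a : ℤ) (v : Fin l → ℤ) (i : Fin l) : ac P (a • v) i = a * ac P v i := by
  simp only [ac, Pi.smul_apply, smul_eq_mul, mul_sum]
  exact sum_congr rfl fun j _ => by ring

theorem gv_add (q : ℤ) (v w : Fin l → ℤ) : gv P q (v + w) = gv P q v + gv P q w := by
  simp [gv, ac_add, add_mul, sum_add_distrib]

theorem gv_smul (q a : ℤ) (v : Fin l → ℤ) : gv P q (a • v) = a * gv P q v := by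
  simp only [gv, ac_smul, mul_sum]
  exact sum_congr rfl fun j _ => by ring

theorem gv_zero (q : ℤ) : gv P q 0 = 0 := by
  have := gv_smul (P := P) q 0 0
  simpa using this

theorem gv_sum {ι : Type*} (q : ℤ) (s : Finset ι) (f : ι → Fin l → ℤ) :
    gv P q (∑ i ∈ s, f i) = ∑ i ∈ s, gv P q (f i) := by
  classical
  induction s using Finset.induction_on with
  | empty => simp [gv_zero]
  | insert a s ha ih => rw [sum_insert ha, sum_insert ha, gv_add, ih]

theorem gv_sub (q : ℤ) (v w : Fin l → ℤ) : gv P q (v - w) = gv P q v - gv P q w := by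
  have h1 : v - w = v + (-1 : ℤ) • w := by ext k; simp [sub_eq_add_neg]
  rw [h1, gv_add, gv_smul]; ring

variable (C : Cyc M b P c)
include C

theorem Cyc.decomp (v : Fin l → ℤ) : v = ∑ i, ac P v i • (M^[(i : ℕ)] b) := by
  ext k
  rw [Finset.sum_apply]
  simp only [Pi.smul_apply, smul_eq_mul, ac]
  have h1 : ∑ i, (∑ j, P i j * v j) * (M^[(i : ℕ)] b) k =
      ∑ j, v j * ∑ i, P i j * (M^[(i : ℕ)] b) k := by
    simp only [sum_mul, mul_sum]
    rw [sum_comm]
    exact sum_congr rfl fun j _ => sum_congr rfl fun i _ => by ring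
  rw [h1]
  simp [C.inv]

theorem Cyc.ac_iterate (i j : Fin l) : ac P (M^[(i : ℕ)] b) j = if i = j then 1 else 0 := by
  let V : Matrix (Fin l) (Fin l) ℤ := Matrix.of fun i k => (M^[(i : ℕ)] b) k
  let Q : Matrix (Fin l) (Fin l) ℤ := Matrix.of fun j i => P i j
  have h1 : Q * V = 1 := by
    ext j k
    rw [Matrix.mul_apply, Matrix.one_apply]
    exact C.inv j k
  have h2 : V * Q = 1 := mul_eq_one_comm.1 h1
  have h3 := congrFun (congrFun h2 i) j
  rw [Matrix.mul_apply, Matrix.one_apply] at h3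
  rw [← h3]
  unfold ac
  exact sum_congr rfl fun k _ => mul_comm _ _

theorem Cyc.gv_iterate (q : ℤ) (i : Fin l) : gv P q (M^[(i : ℕ)] b) = q ^ (i : ℕ) := by
  unfold gv
  simp [C.ac_iterate]

theorem Cyc.gv_b (q : ℤ) : gv P q b = 1 := by
  have := C.gv_iterate q ⟨0, C.pos⟩
  simpa using this

theorem Cyc.rel' : M^[l] b = - ∑ i, c i • (M^[(i : ℕ)] b) := by
  ext k
  rw [C.rel k, Pi.neg_apply, Finset.sum_apply]
  simp

theorem Cyc.gv_top (q : ℤ) : gv P q (M^[l] b) = q ^ l - fv c q := by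
  have h1 : M^[l] b = (-1 : ℤ) • ∑ i, c i • (M^[(i : ℕ)] b) := by
    rw [C.rel']; simp
  rw [h1, gv_smul, gv_sum]
  simp only [gv_smul, C.gv_iterate, fv]
  ring

/-- multiplication by `M` is multiplication by `q` modulo `f(q)` -/
theorem Cyc.gv_map (q : ℤ) (v : Fin l → ℤ) : fv c q ∣ gv P q (M v) - q * gv P q v := by
  have key : ∀ i : Fin l, fv c q ∣ gv P q (M (M^[(i : ℕ)] b)) - q * gv P q (M^[(i : ℕ)] b) := by
    intro i
    rw [C.gv_iterate, ← Function.iterate_succ_apply' M i b]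
    by_cases hi : (i : ℕ) + 1 < l
    · have := C.gv_iterate q ⟨(i : ℕ) + 1, hi⟩
      rw [show (i : ℕ).succ = (i : ℕ) + 1 from rfl, this]
      simp [pow_succ, mul_comm]
    · have hl : (i : ℕ).succ = l := by have := i.2; omega
      have hpow : q ^ l = q * q ^ (i : ℕ) := by
        rw [← pow_succ', show (i : ℕ) + 1 = l from hl]
      rw [hl, C.gv_top, hpow]
      exact ⟨-1, by ring⟩
  conv in gv P q (M v) => rw [C.decomp v, map_sum, gv_sum]
  conv in gv P q v => rw [C.decomp v, gv_sum]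
  rw [mul_sum, ← sum_sub_distrib]
  refine dvd_sum fun i _ => ?_
  rw [map_zsmul, gv_smul, gv_smul]
  have h := Dvd.dvd.mul_left (key i) (ac P v i)
  refine (congrArg (fv c q ∣ ·) ?_).mp h
  ring

variable {T : Type*} [CommGroup T]

theorem Cyc.E_eq {q : ℕ} {z : Fin l → T} (hz : z ∈ tw T M q) (v : Fin l → ℤ) :
    E z v = (E z b) ^ gv P q v := by
  conv_lhs => rw [C.decomp v, E_sum]
  unfold gv
  have : (E z b) ^ (∑ i, ac P v i * (q : ℤ) ^ (i : ℕ)) =
      ∏ i, (E z b) ^ (ac P v i * (q : ℤ) ^ (i : ℕ)) := by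
    induction (univ : Finset (Fin l)) using Finset.induction_on with
    | empty => simp
    | insert a s ha ih => rw [sum_insert ha, prod_insert ha, zpow_add, ih]
  rw [this]
  refine prod_congr rfl fun i _ => ?_
  rw [E_smul, tw_iterate hz, mul_comm, zpow_mul]
  congr 1
  rw [← zpow_natCast]
  push_cast
  rfl

theorem Cyc.E_pow_f {q : ℕ} {z : Fin l → T} (hz : z ∈ tw T M q) :
    (E z b) ^ fv c q = 1 := by
  have h1 := tw_iterate hz b l
  rw [C.E_eq hz (M^[l] b), C.gv_top, zpow_sub] at h1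
  have h2 : (E z b) ^ ((q : ℤ) ^ l) = (E z b) ^ (q ^ l) := by
    rw [← zpow_natCast]; push_cast; rfl
  rw [h2, mul_inv_eq_iff_eq_mul] at h1
  exact (mul_eq_left.1 h1.symm)

/-- the inverse construction -/
def mkz (P : Fin l → Fin l → ℤ) (q : ℕ) (ζ : T) : Fin l → T :=
  fun j => ζ ^ gv P q (Pi.single j 1)

omit C in
theorem E_mkz (q : ℕ) (ζ : T) (v : Fin l → ℤ) : E (mkz P q ζ) v = ζ ^ gv P q v := by
  conv_rhs => rw [eq_sum_single v, gv_sum]
  unfold E mkz
  have : ζ ^ (∑ i, gv P (q : ℤ) (v i • Pi.single i 1)) =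
      ∏ i, ζ ^ (gv P (q : ℤ) (v i • Pi.single i 1)) := by
    induction (univ : Finset (Fin l)) using Finset.induction_on with
    | empty => simp
    | insert a s ha ih => rw [sum_insert ha, prod_insert ha, zpow_add, ih]
  rw [this]
  refine prod_congr rfl fun j _ => ?_
  rw [gv_smul, mul_comm, zpow_mul]

theorem Cyc.mkz_mem {q : ℕ} {ζ : T} (hζ : ζ ^ fv c q = 1) : mkz P q ζ ∈ tw T M q := by
  intro j
  rw [E_mkz]
  obtain ⟨k, hk⟩ := C.gv_map q (Pi.single j 1)
  have h1 : gv P q (M (Pi.single j 1)) = q * gv P q (Pi.single j 1) + fv c q * k := by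
    rw [← hk]; ring
  rw [h1, zpow_add, zpow_mul ζ (fv c q) k, hζ, one_zpow, mul_one]
  unfold mkz
  rw [← zpow_natCast, ← zpow_mul, mul_comm]

/-- the twisted character group is isomorphic to the group of solutions of `ζ ^ f = 1` -/
noncomputable def Cyc.equiv (q : ℕ) : tw T M q ≃* (zpowGroupHom (α := T) (fv c q)).ker where
  toFun z := ⟨E z.1 b, by
    rw [MonoidHom.mem_ker]; exact C.E_pow_f z.2⟩
  invFun ζ := ⟨mkz P q ζ.1, C.mkz_mem (by have := ζ.2; rw [MonoidHom.mem_ker] at this; exact this)⟩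
  left_inv z := by
    apply Subtype.ext
    funext j
    change (E z.1 b) ^ gv P q (Pi.single j 1) = z.1 j
    rw [← C.E_eq z.2, E_single]
  right_inv ζ := by
    apply Subtype.ext
    change E (mkz P q ζ.1) b = ζ.1
    rw [E_mkz, C.gv_b, zpow_one]
  map_mul' z z' := by
    apply Subtype.ext
    exact E_mul _ _ _

end Cyc

end H22.TorusLat
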