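import Cfsg.Agent.Lib.H22.TorusFix

/-!
# Steinberg endomorphisms given by a symmetry of the root system and a Frobenius map
-/

set_option autoImplicit false
set_option linter.style.haveILetI false
set_option linter.unusedSectionVars false
set_option linter.unusedSimpArgs false

namespace H22.TwStein

open H22.RGD H22.Coord H22.RCCheck H22.RCComb H22.ChevTri H22.ChevRel H22.ChevSys H22.ChevMain
open H22.ChevStd H22.ChevUni H22.ChevTorus H22.Lang H22.LangChev H22.TorusLat H22.TorusCore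
open Cfsg.Lie (ChevalleyDatum)
open scoped MatrixGroups Matrix

variable {D : ChevalleyDatum} {K : Type*} [Field K] (R : Rel D K) (X : RCX D)

/-- An endomorphism of the general linear group permuting the root elements. -/
structure RM (τ : Equiv.Perm (Fin D.nroots)) (π : Equiv.Perm (Fin D.rank))
    (ε : Fin D.nroots → K) (φ : K →+* K) (σ : GL D.Idx K →* GL D.Idx K) : Prop where
  x : ∀ (r : Fin D.nroots) (t : K), σ (xg R r t) = xg R (τ r) (ε r * φ t)
  εne : ∀ r, ε r ≠ 0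
  φsurj : Function.Surjective φ
  simple : ∀ i, τ ((comb X).simple i) = (comb X).simple (π i)
  neg : ∀ r, τ ((comb X).neg r) = (comb X).neg (τ r)
  εs : ∀ i, ε ((comb X).simple i) = 1
  εn : ∀ i, ε ((comb X).neg ((comb X).simple i)) = 1

variable {R X} {τ : Equiv.Perm (Fin D.nroots)} {π : Equiv.Perm (Fin D.rank)}
    {ε : Fin D.nroots → K} {φ : K →+* K} {σ : GL D.Idx K →* GL D.Idx K}

theorem group_ind {p : GL D.Idx K → Prop} (R : Rel D K)
    (hx : ∀ (r : Fin D.nroots) (t : K), p (xg R r t))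
    (h1 : p 1) (hmul : ∀ a b, p a → p b → p (a * b)) (hinv : ∀ a, p a → p a⁻¹)
    {g : GL D.Idx K} (hg : g ∈ D.group K) : p g := by
  rw [group_eq_closure] at hg
  induction hg using Subgroup.closure_induction with
  | mem x hx' =>
    obtain ⟨r, t, hr, h⟩ := hx'
    rw [xg_eq R h]
    exact hx ⟨r, hr⟩ t
  | one => exact h1
  | mul x y _ _ hx hy => exact hmul _ _ hx hy
  | inv x _ hx => exact hinv _ hx

namespace RM

variable (M : RM R X τ π ε φ σ)
include M

theorem group {g : GL D.Idx K} (hg : g ∈ D.group K) : σ g ∈ D.group K := by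
  refine group_ind (p := fun g => σ g ∈ D.group K) R ?_ ?_ ?_ ?_ hg
  · intro r t
    rw [M.x]; exact xg_mem_group' R _ _
  · rw [map_one]; exact one_mem _
  · intro a b ha hb
    rw [map_mul]; exact mul_mem ha hb
  · intro a ha
    rw [map_inv]; exact inv_mem ha

theorem ng (i : Fin D.rank) (t : K) :
    σ (ng R (D.simple i) t) = H22.ChevRel.ng R (D.simple (π i)) (φ t) := by
  have h1 := M.x ((comb X).simple i) t
  have h2 := M.x ((comb X).neg ((comb X).simple i)) (-t⁻¹)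
  rw [M.εs, one_mul, M.simple] at h1
  rw [M.εn, one_mul, M.neg, M.simple, map_neg, map_inv₀] at h2
  rw [ng_def, ng_def, map_mul, map_mul]
  exact congrArg₂ (· * ·) (congrArg₂ (· * ·) h1 h2) h1

theorem hs (i : Fin D.rank) (t : K) :
    σ (hs R i t) = H22.ChevSys.hs R (π i) (φ t) := by
  unfold H22.ChevSys.hs
  rw [hg_def, hg_def, map_mul, M.ng, M.ng, map_neg, map_one]

theorem Hs {h : GL D.Idx K} (hh : h ∈ Hs R) : σ h ∈ H22.ChevSys.Hs R := by
  unfold H22.ChevSys.Hs at hh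
  induction hh using Subgroup.closure_induction with
  | mem x hx =>
    obtain ⟨i, hi, c, hc, rfl⟩ := hx
    rw [M.hs ⟨i, hi⟩ c]
    exact hs_mem R (π ⟨i, hi⟩).2 ((map_ne_zero φ).2 hc)
  | one => rw [map_one]; exact one_mem _
  | mul x y _ _ hx hy => rw [map_mul]; exact mul_mem hx hy
  | inv x _ hx => rw [map_inv]; exact inv_mem hx

theorem n (i : Fin D.rank) : σ ((chevSys R X).n i) = (chevSys R X).n (π i) := by
  have h1 : ∀ j : Fin D.rank, (chevSys R X).n j = H22.ChevRel.ng R (D.simple j) 1 := fun j => rfl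
  rw [h1, h1, M.ng, map_one]

theorem H {h : GL D.Idx K} (hh : h ∈ (chevSys R X).H) : σ h ∈ (chevSys R X).H := by
  rw [chevSys_H, diagonalSubgroup_eq R X] at hh ⊢
  exact M.Hs hh

theorem N {g : GL D.Idx K} (hg : g ∈ (chevSys R X).N) : σ g ∈ (chevSys R X).N := by
  have : (chevSys R X).N ≤ (chevSys R X).N.comap σ := by
    refine sup_le (fun h hh => (chevSys R X).H_le_N (M.H hh)) ?_
    rw [Subgroup.closure_le]
    rintro _ ⟨i, rfl⟩
    change σ ((chevSys R X).n i) ∈ (chevSys R X).N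
    rw [M.n]
    exact (chevSys R X).n_mem_N _
  exact this hg

theorem mapX (r : Fin D.nroots) : ((chevSys R X).X r).map σ = (chevSys R X).X (τ r) := by
  ext g
  constructor
  · rintro ⟨x, hx, rfl⟩
    rw [SetLike.mem_coe, chevSys_X, mem_rootSubgroup R] at hx
    obtain ⟨t, rfl⟩ := hx
    rw [chevSys_X, mem_rootSubgroup R]
    exact ⟨_, M.x r t⟩
  · intro hg
    rw [chevSys_X, mem_rootSubgroup R] at hg
    obtain ⟨t, rfl⟩ := hg
    obtain ⟨u, hu⟩ := M.φsurj ((ε r)⁻¹ * t)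
    refine ⟨xg R r u, ?_, ?_⟩
    · rw [SetLike.mem_coe, chevSys_X, mem_rootSubgroup R]; exact ⟨u, rfl⟩
    · rw [M.x, hu, mul_inv_cancel_left₀ (M.εne r)]

theorem rep {g : GL D.Idx K} {w : Equiv.Perm (Fin D.nroots)} (hg : (chevSys R X).Rep g w) :
    (chevSys R X).Rep (σ g) (τ * w * τ⁻¹) := by
  obtain ⟨w', hw'⟩ := (chevSys R X).exists_rep (M.N hg.1)
  have key : ∀ r, w' (τ r) = τ (w r) := by
    intro r
    apply (chevSys R X).X_inj
    change (chevSys R X).X _ = (chevSys R X).X _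
    rw [← hw'.2.2, ← M.mapX, ← M.mapX, ← hg.2.2]
    ext z
    constructor
    · rintro ⟨_, ⟨x, hx, rfl⟩, rfl⟩
      exact ⟨g * x * g⁻¹, ⟨x, hx, rfl⟩, by simp⟩
    · rintro ⟨_, ⟨x, hx, rfl⟩, rfl⟩
      refine ⟨σ x, ⟨x, hx, rfl⟩, ?_⟩
      simp
  have e : w' = τ * w * τ⁻¹ := by
    ext r
    have h1 := key (τ⁻¹ r)
    have h2 : τ (τ⁻¹ r) = r := by simp
    rw [h2] at h1
    rw [h1]; rfl
  rw [← e]; exact hw'

theorem torus (hT : ∀ z : Fin D.rank → Kˣ, Tz X z ∈ H22.ChevSys.Hs R) {q : ℕ}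
    (hφ : ∀ x, φ x = x ^ q) (z : Fin D.rank → Kˣ) :
    ∃ z', σ (Tz X z) = Tz X z' ∧ ∀ r, E z' (v X (τ r)) = (E z (v X r)) ^ q := by
  obtain ⟨z', hz'⟩ := Hs_le_Tz R X (M.Hs (hT z))
  refine ⟨z', hz', fun r => ?_⟩
  have h1 := congrArg σ (Tz_conj R X (hT z) r 1)
  rw [map_mul, map_mul, map_inv, hz', M.x, M.x, Tz_conj R X (hT z')] at h1
  have h2 := xg_inj R X.rc (τ r).2 h1
  rw [map_one, mul_one, mul_one, hφ, mul_comm] at h2
  apply Units.ext
  rw [Units.val_pow_eq_pow_val]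
  exact mul_left_cancel₀ (M.εne r) h2

theorem stein (hT : ∀ z : Fin D.rank → Kˣ, Tz X z ∈ H22.ChevSys.Hs R) {q : ℕ}
    (hφ : ∀ x, φ x = x ^ q)
    (lang : ∀ g ∈ D.group K, ∃ x ∈ D.group K, x⁻¹ * σ x = g) : Stein R X τ q σ where
  G := fun _ h => M.group h
  torus := M.torus hT hφ
  rep := fun _ _ h => M.rep h
  lang := lang

end RM

/-- conjugates of Frobenius endomorphisms are regular -/
theorem reg_conj {G : Subgroup (GL D.Idx K)} (P : GL D.Idx K) {q : ℕ} (f : G →* G)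
    (hφ : ∀ x, φ x = x ^ q)
    (hf : ∀ g : G, ((f g : G) : GL D.Idx K) = P * Matrix.GeneralLinearGroup.map φ (g : GL D.Idx K) * P⁻¹) :
    Reg (f : G → G) := by
  have key : ∀ (g : G) (i j : D.Idx), ((f g : G) : GL D.Idx K).1 i j =
      ∑ b, (∑ a, (P : GL D.Idx K).1 i a * (g : GL D.Idx K).1 a b ^ q) * (P⁻¹ : GL D.Idx K).1 b j := by
    intro g i j
    rw [hf, Units.val_mul, Units.val_mul, Matrix.mul_apply]
    refine Finset.sum_congr rfl fun b _ => ?_
    rw [Matrix.mul_apply]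
    congr 1
    refine Finset.sum_congr rfl fun a _ => ?_
    congr 1
    exact hφ _
  apply reg_of
  rintro ⟨b, i, j⟩
  cases b
  · have : (cf G (false, i, j) ∘ f : G → K) = ∑ b, (∑ a, (P : GL D.Idx K).1 i a •
        (cf G (false, a, b)) ^ q) * algebraMap K (G → K) ((P⁻¹ : GL D.Idx K).1 b j) := by
      funext g
      rw [Finset.sum_apply]
      change ((f g : G) : GL D.Idx K).1 i j = _
      rw [key]
      refine Finset.sum_congr rfl fun b _ => ?_
      rw [Pi.mul_apply, Finset.sum_apply]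
      rfl
    rw [this]
    exact sum_mem fun b _ => mul_mem (sum_mem fun a _ => (CA G).smul_mem
      (pow_mem (cf_mem G _) q) _) ((CA G).algebraMap_mem _)
  · have : (cf G (true, i, j) ∘ f : G → K) = ∑ b, (∑ a, (P : GL D.Idx K).1 i a •
        (cf G (true, a, b)) ^ q) * algebraMap K (G → K) ((P⁻¹ : GL D.Idx K).1 b j) := by
      funext g
      rw [Finset.sum_apply]
      change (((f g)⁻¹ : G) : GL D.Idx K).1 i j = _
      rw [← map_inv, key]
      refine Finset.sum_congr rfl fun b _ => ?_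
      rw [Pi.mul_apply, Finset.sum_apply]
      rfl
    rw [this]
    exact sum_mem fun b _ => mul_mem (sum_mem fun a _ => (CA G).smul_mem
      (pow_mem (cf_mem G _) q) _) ((CA G).algebraMap_mem _)

include R in
/-- **Lang-Steinberg** for a conjugate of a Frobenius map. -/
theorem lang_conj [IsAlgClosed K] (Z : Lex X.rc) (P : GL D.Idx K) {q : ℕ} (hφ : ∀ x, φ x = x ^ q)
    (hσ : ∀ g, σ g = P * Matrix.GeneralLinearGroup.map φ g * P⁻¹)
    (hG : ∀ g ∈ D.group K, σ g ∈ D.group K) {k Q : ℕ} (hQ : 2 ≤ Q)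
    (hk : ∀ g ∈ D.group K, ∀ i j, ((σ^[k] g : GL D.Idx K)).1 i j = (g : GL D.Idx K).1 i j ^ Q) :
    ∀ g ∈ D.group K, ∃ x ∈ D.group K, x⁻¹ * σ x = g := by
  intro g hg
  have hit : ∀ (m : ℕ) (g : D.group K), (((restr σ hG)^[m] g : D.group K) : GL D.Idx K) =
      σ^[m] (g : GL D.Idx K) := by
    intro m
    induction m with
    | zero => intro g; rfl
    | succ m ih =>
      intro g
      rw [Function.iterate_succ_apply', Function.iterate_succ_apply', ← ih]
      rfl
  obtain ⟨x, hx⟩ := lang_steinberg (irr_group R Z) (restr σ hG)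
    (reg_conj P _ hφ (fun g => hσ g)) k Q hQ (fun g i j => by
      rw [hit]; exact hk g g.2 i j) ⟨g, hg⟩
  exact ⟨x, x.2, congrArg Subtype.val hx⟩

end H22.TwStein
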